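import Cfsg.Agent.Lib.SuzRankThree.Setup
import Cfsg.Agent.Lib.SuzRankThree.ClassData

/-!
Kernel checks on the class of elements of order three and on the subgroups generated with `x`.
-/

set_option autoImplicit false
set_option maxRecDepth 100000

namespace CfsgLib.SuzRankThree

open CfsgLib.RankThreeRecog

/-- The key of a word: its images of the base, packed. -/
noncomputable def keyW (w : List ℕ) : ℕ :=
  List.rec 0 (fun b _ ih => Nat.add (ev img w b) (Nat.mul 2048 ih)) base

noncomputable def kp (k : ℕ) : ℕ := Nat.land (Nat.shiftRight kpLit (Nat.mul 77 k)) (2 ^ 77 - 1)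
noncomputable def km (k : ℕ) : ℕ := Nat.land (Nat.shiftRight kmLit (Nat.mul 77 k)) (2 ^ 77 - 1)
noncomputable def nxt (k : ℕ) : ℕ := Nat.land (Nat.shiftRight nxLit (Nat.mul 12 k)) 4095
noncomputable def repOf (k : ℕ) : ℕ := Nat.land (Nat.shiftRight repLit (Nat.mul 12 k)) 4095
noncomputable def expOf (k : ℕ) : ℕ := Nat.land (Nat.shiftRight expLit (Nat.mul 3 k)) 7

/-- The word of a class element from a conjugating word. -/
noncomputable def uw (w : List ℕ) : List ℕ := w ++ 9 :: w.reverse

/-- The word of the inverse. -/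
noncomputable def uwi (w : List ℕ) : List ℕ := w ++ 10 :: w.reverse

/-- Whether a key is one of the two keys of a position. -/
noncomputable def isKey (k key : ℕ) : Bool := decide (k < 2080) && (Nat.beq key (kp k) || Nat.beq key (km k))

/-- The check of one class entry. -/
noncomputable def entryOK (k : ℕ) (e : List ℕ × List ℕ) : Bool :=
  (e.1.all fun i => decide (i < 6)) && Nat.beq (keyW (uw e.1)) (kp k) && Nat.beq (keyW (uwi e.1)) (km k) &&
    ((List.range 6).all fun g => isKey (e.2.getD g 0) (keyW (g :: (uw e.1 ++ [g])))) &&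
    isKey (nxt k) (keyW (7 :: (uw e.1 ++ [8]))) &&
    Nat.beq ((List.range (expOf k)).foldl (fun j _ => nxt j) k) (repOf k)

/-- The checks of a list of entries. -/
noncomputable def chkList : List (List ℕ × List ℕ) → ℕ → Bool :=
  fun l => List.rec (fun _ => true) (fun e _ ih k => entryOK k e && ih (k + 1)) l

theorem cls0_ok : chkList cls0 0 = true := by decide +kernel
theorem cls1_ok : chkList cls1 260 = true := by decide +kernel
theorem cls2_ok : chkList cls2 520 = true := by decide +kernel
theorem cls3_ok : chkList cls3 780 = true := by decide +kernel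
theorem cls4_ok : chkList cls4 1040 = true := by decide +kernel
theorem cls5_ok : chkList cls5 1300 = true := by decide +kernel
theorem cls6_ok : chkList cls6 1560 = true := by decide +kernel
theorem cls7_ok : chkList cls7 1820 = true := by decide +kernel

/-- All entries. -/
noncomputable def cls : List (List ℕ × List ℕ) := cls0 ++ cls1 ++ cls2 ++ cls3 ++ cls4 ++ cls5 ++ cls6 ++ cls7

/-- The conjugating word of a position. -/
noncomputable def wOf (k : ℕ) : List ℕ := (cls.getD k ([], [])).1

/-- The word of a class element. -/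
noncomputable def uOf (k : ℕ) : List ℕ := uw (wOf k)

/-- Substitution of words for letters. -/
noncomputable def subst (ls : List (List ℕ)) (w : List ℕ) : List ℕ := (w.map fun i => ls.getD i []).flatten

/-- The letters `x`, `x⁻¹`, `u`, `u⁻¹`. -/
noncomputable def four (k : ℕ) : List (List ℕ) := [[7], [8], uOf k, uwi (wOf k)]

/-- The third point. -/
noncomputable def fxAt (i : ℕ) : ℕ := fx.getD (i % 3) 0

noncomputable def umAt (i : ℕ) : ℕ := um.getD (i % 3) 0
noncomputable def hmAt (i : ℕ) : ℕ := hm.getD (i % 3) 0

/-- The check of one case. -/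
noncomputable def caseOK (t : ℕ × ℕ × ℕ × ℕ × List ℕ) : Bool :=
  decide (t.1 < 2080) && inK (subst (four t.1) t.2.2.2.2) &&
  match t.2.1 with
  | 0 => decide (t.2.2.2.1 < 1782) && cycleLen img (subst (four t.1) t.2.2.2.2) 13 t.2.2.2.1
  | 1 => decide (t.2.2.1 < 3) && fixesAll img [fxAt t.2.2.1] (uOf t.1) &&
      Nat.beq (keyW (subst (four t.1) t.2.2.2.2)) (kp (umAt t.2.2.1))
  | 2 => decide (t.2.2.1 < 3) && fixesAll img [fxAt t.2.2.1, fxAt (t.2.2.1 + 1)] (uOf t.1) &&
      Nat.beq (keyW (subst (four t.1) t.2.2.2.2)) (kp (hmAt t.2.2.1))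
  | _ => Nat.beq t.1 kc

theorem cases_ok : cases.all caseOK = true := by decide +kernel

theorem cover_ok : ((List.range 2080).all fun k => cases.any fun t => Nat.beq t.1 (repOf k)) = true := by
  decide +kernel

theorem keys_increasing : ((List.range 2079).all fun k => decide (kp k < kp (k + 1))) = true := by decide +kernel

/-- The chain generators. -/
noncomputable def chainW (i : ℕ) : List Level :=
  ([chain0, chain1, chain2].getD i []).map fun l => (l.1, l.2.1.map (subst (four (umAt i))), l.2.2)

/-- The chain sizes. -/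
noncomputable def sizesW (i : ℕ) : List ℕ := [chainSizes0, chainSizes1, chainSizes2].getD i []

/-- Whether the first level reaches at least 100 points. -/
noncomputable def firstOK (i : ℕ) : Bool :=
  match chainW i with
  | l :: _ => Nat.beq l.1 (fxAt (i + 1)) &&
      (match grow img l.2.1 l.2.2 (Nat.shiftLeft 1 l.1) with
       | some m => decide (100 ≤ maskCount 1782 m)
       | none => false)
  | [] => false

/-- The checks of the three points. -/
noncomputable def pointOK (i : ℕ) : Bool :=
  decide (umAt i < 2080) && decide (hmAt i < 2080) && decide (fxAt i < 1782) &&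
  Nat.testBit mskK1_0 (fxAt i) && fixesAll img [fxAt i] [7] &&
  fixesAll img [fxAt i] (uOf (umAt i)) &&
  fixesAll img [fxAt i, fxAt (i + 1)] (uOf (hmAt i)) &&
  chainOK img 1782 (chainW i) [] (sizesW i) && decide (604800 ≤ (sizesW i).prod) &&
  ((chainW i).all fun l => l.2.1.all inK) && firstOK i &&
  (inK (subst (four (hmAt i) ++ [uOf (hmAt (i + 1)), uwi (wOf (hmAt (i + 1)))]) (combo.getD i []))) &&
  Nat.beq (keyW (subst (four (hmAt i) ++ [uOf (hmAt (i + 1)), uwi (wOf (hmAt (i + 1)))]) (combo.getD i [])))
    (kp (umAt (i + 1))) &&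
  inK (subst (four (hmAt i) ++ [uOf kc, uwi (wOf kc)]) (ckill.getD i (0, [])).2) &&
  decide ((ckill.getD i (0, [])).1 < 1782) &&
  cycleLen img (subst (four (hmAt i) ++ [uOf kc, uwi (wOf kc)]) (ckill.getD i (0, [])).2) 13 (ckill.getD i (0, [])).1 &&
  (o416.all fun p => !(Nat.beq (ev img (uOf (hmAt i)) p) p &&
      Nat.beq (ev img (7 :: (uOf (hmAt i) ++ [8])) p) p) || (common.getD i []).any fun q => Nat.beq q p) &&
  decide ((common.getD i []).length ≤ 8)

theorem points_ok : ((List.range 3).all pointOK) = true := by decide +kernel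

theorem elems_ok : (decide (kc < 2080) && Nat.beq (keyW [9]) (kp kc) && Nat.beq (keyW [7, 9]) (keyW [9, 7]) &&
    Nat.beq (keyW [7, 7, 7, 7, 7, 7, 7]) (keyW []) && !Nat.beq (keyW [7]) (keyW []) &&
    Nat.beq (keyW [9, 9, 9]) (keyW []) && !Nat.beq (keyW [9]) (keyW [])) = true := by decide +kernel

end CfsgLib.SuzRankThree
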