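import Mathlib.GroupTheory.Sylow
import Mathlib.GroupTheory.GroupAction.Quotient

/-!
Conjugating elements of prime order into subgroups of prime-to-`p` index.
-/

set_option autoImplicit false

namespace CfsgLib.SuzRankThree

open scoped Pointwise

variable {K : Type*} [Group K] [Finite K]

/-- A subgroup of index prime to `p` contains a conjugate of every `p`-subgroup. -/
theorem exists_conj_le {p : ℕ} [Fact p.Prime] (J P : Subgroup K) (hJ : ¬ p ∣ J.index) (hP : IsPGroup p P) :
    ∃ g : K, ∀ y ∈ P, g * y * g⁻¹ ∈ J := by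
  obtain ⟨R⟩ := (inferInstance : Nonempty (Sylow p J))
  have hcard : Nat.card ((R : Subgroup J).map J.subtype) = p ^ (Nat.card K).factorization p := by
    rw [Nat.card_congr (Subgroup.equivMapOfInjective _ _ J.subtype_injective).toEquiv.symm,
      R.card_eq_multiplicity, ← J.card_mul_index, Nat.factorization_mul Nat.card_pos.ne'
        Subgroup.index_ne_zero_of_finite, Finsupp.add_apply, Nat.factorization_eq_zero_of_not_dvd hJ, add_zero]
  let R' : Sylow p K := Sylow.ofCard _ hcard
  obtain ⟨Q, hQ⟩ := hP.exists_le_sylow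
  obtain ⟨g, hg⟩ := MulAction.exists_smul_eq K Q R'
  refine ⟨g, fun y hy => ?_⟩
  have h1 : g * y * g⁻¹ ∈ ((g • Q : Sylow p K) : Subgroup K) := by
    rw [Sylow.coe_subgroup_smul]
    exact Subgroup.smul_mem_pointwise_smul _ (MulAut.conj g) _ (hQ hy)
  rw [hg] at h1
  obtain ⟨r, -, e⟩ := h1
  rw [← e]
  exact r.2

end CfsgLib.SuzRankThree
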