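import Cfsg.Agent.Lib.SuzRankThree.FarChecks
import Cfsg.Agent.Lib.SuzRankThree.Sylow
import Cfsg.Agent.Lib.RankThreeRecog.Compare

/-!
The subgroups of index 1365 of the point stabiliser, and uniqueness of the invariant subsets.
-/

set_option autoImplicit false
set_option maxRecDepth 100000
set_option linter.style.haveILetI false

namespace CfsgLib.SuzRankThree

open CfsgLib.RankThreeRecog MulAction
open scoped Classical

/-- An invariant set contains a certified orbit or misses it. -/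
theorem block {gens : List (List ℕ)} {es : List (ℕ × ℕ × ℕ)} {r m : ℕ} (h : connOK gens es r m = true)
    (hr : r < 1782) {L : Subgroup (Equiv.Perm (Fin 1782))} (hL : ∀ w ∈ gens, wperm σ w ∈ L)
    {B : Set (Fin 1782)} (hB : ∀ g ∈ L, ∀ x ∈ B, g x ∈ B) : maskSet m ⊆ B ∨ Disjoint (maskSet m) B := by
  by_cases hd : Disjoint (maskSet m) B
  · exact Or.inr hd
  left
  obtain ⟨z, hz, hzB⟩ := Set.not_disjoint_iff.1 hd
  obtain ⟨g, hg⟩ := conn_spec h hL hr hz
  intro y hy
  obtain ⟨g', hg'⟩ := conn_spec h hL hr hy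
  have e : y = (g' * g⁻¹) • z := by
    rw [← hg', ← hg]
    change g' • _ = (g' * g⁻¹) • g • _
    rw [smul_smul, inv_mul_cancel_right]
  rw [e]
  exact hB _ (g' * g⁻¹).2 z hzB

theorem maskSet_lor (m m' : ℕ) : maskSet (Nat.lor m m') = maskSet m ∪ maskSet m' := by
  ext x
  change Nat.testBit (m ||| m') x = true ↔ _
  rw [Nat.testBit_or, Bool.or_eq_true]
  rfl

/-- The part of a set inside a class. -/
noncomputable def part (B : Set (Fin 1782)) (m : ℕ) : ℕ := if maskSet m ⊆ B then maskCount 1782 m else 0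

theorem part_eq {B : Set (Fin 1782)} {m : ℕ} (h : maskSet m ⊆ B ∨ Disjoint (maskSet m) B) :
    (B ∩ maskSet m).ncard = part B m := by
  rw [part]
  split_ifs with hs
  · rw [Set.inter_eq_right.2 hs, ncard_maskSet]
  · rw [Set.disjoint_iff_inter_eq_empty.1 (h.resolve_left hs).symm, Set.ncard_empty]

theorem ncard_split (m m' : ℕ) (B : Set (Fin 1782))
    (hs : maskCount 1782 (Nat.lor m m') = maskCount 1782 m + maskCount 1782 m') :
    (B ∩ maskSet (Nat.lor m m')).ncard = (B ∩ maskSet m).ncard + (B ∩ maskSet m').ncard := by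
  have hd : Disjoint (maskSet m) (maskSet m') := by
    have h := Set.ncard_union_add_ncard_inter (maskSet m) (maskSet m')
    rw [← maskSet_lor, ncard_maskSet, ncard_maskSet, ncard_maskSet, hs] at h
    rw [Set.disjoint_iff_inter_eq_empty, ← Set.ncard_eq_zero]
    omega
  rw [maskSet_lor, Set.inter_union_distrib_left,
    Set.ncard_union_eq (hd.mono Set.inter_subset_right Set.inter_subset_right)]

theorem inter_eq {B B' : Set (Fin 1782)} {m : ℕ} (h : maskSet m ⊆ B ∨ Disjoint (maskSet m) B)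
    (h' : maskSet m ⊆ B' ∨ Disjoint (maskSet m) B') (hm : 0 < maskCount 1782 m) (e : part B m = part B' m) :
    B ∩ maskSet m = B' ∩ maskSet m := by
  rw [part, part] at e
  split_ifs at e with h1 h2 h2
  · rw [Set.inter_eq_right.2 h1, Set.inter_eq_right.2 h2]
  · omega
  · omega
  · rw [Set.disjoint_iff_inter_eq_empty.1 (h.resolve_left h1).symm,
      Set.disjoint_iff_inter_eq_empty.1 (h'.resolve_left h2).symm]

theorem eq_of_parts {B B' : Set (Fin 1782)} (M : List ℕ) (hB : ∀ x ∈ B, ∃ m ∈ M, x ∈ maskSet m)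
    (hB' : ∀ x ∈ B', ∃ m ∈ M, x ∈ maskSet m) (h : ∀ m ∈ M, B ∩ maskSet m = B' ∩ maskSet m) : B = B' := by
  ext x
  constructor
  · intro hx
    obtain ⟨m, hm, hxm⟩ := hB x hx
    exact ((h m hm).subset ⟨hx, hxm⟩).1
  · intro hx
    obtain ⟨m, hm, hxm⟩ := hB' x hx
    exact ((h m hm).superset ⟨hx, hxm⟩).1

theorem small_rev {w : List ℕ} (h : ∀ i ∈ w, i < 6) : wperm σ w.reverse = (wperm σ w)⁻¹ := by
  rw [← wperm_rv, rv]
  congr 2
  conv_lhs => rw [← List.map_id w]
  refine List.map_congr_left fun i hi => ?_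
  have := h i hi
  interval_cases i <;> rfl

theorem small_mem {w : List ℕ} (h : ∀ i ∈ w, i < 6) : wperm σ w ∈ K0 :=
  wperm_mem fun i hi => σ_mem_K0 (h i hi).ne

/-- The span of the first generators of the 2-group. -/
noncomputable def span (n : ℕ) : Subgroup (Equiv.Perm (Fin 1782)) :=
  Subgroup.closure {g | ∃ i, i < n ∧ wperm σ (wg.getD i []) = g}

theorem wProd_mem {n : ℕ} {l : List ℕ} (h : ∀ j ∈ l, j < n) : wperm σ (wProd l) ∈ span n := by
  rw [wProd, wperm_flatten]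
  refine list_prod_mem fun g hg => ?_
  obtain ⟨w, hw, rfl⟩ := List.mem_map.1 hg
  obtain ⟨j, hj, rfl⟩ := List.mem_map.1 hw
  exact Subgroup.subset_closure ⟨j, h j hj, rfl⟩

theorem pc_data {i : ℕ} (hi : i < 12) : (∀ a ∈ wg.getD i [], a < 6) ∧ wperm σ (wg.getD i []) c₀ = c₀ ∧
    wperm σ (wg.getD i []) * wperm σ (wg.getD i []) ∈ span i ∧
    ∀ j, j < i → wperm σ (wg.getD i []) * wperm σ (wg.getD j []) * (wperm σ (wg.getD i []))⁻¹ ∈ span i := by
  have hsm : ∀ j, j < 12 → ∀ a ∈ wg.getD j [], a < 6 := by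
    intro j hj
    have h := pc_ok
    simp only [Bool.and_eq_true, List.all_eq_true, List.mem_range, pcOK, decide_eq_true_eq] at h
    exact (h.1 j hj).1.1.1.1
  have h := pc_ok
  simp only [Bool.and_eq_true, List.all_eq_true, List.mem_range, pcOK, decide_eq_true_eq] at h
  obtain ⟨⟨⟨⟨hs, hf⟩, hsq⟩, hsame⟩, hcj⟩ := h.1 i hi
  have hprod : ∀ {n : ℕ} (l : List ℕ), n ≤ 12 → (∀ j ∈ l, j < n) → inK (wProd l) = true := by
    intro n l hn hl
    rw [inK, List.all_eq_true]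
    intro a ha
    obtain ⟨w, hw, haw⟩ := List.mem_flatten.1 ha
    obtain ⟨j, hj, rfl⟩ := List.mem_map.1 hw
    have := hsm j (by have := hl j hj; omega) a haw
    interval_cases a <;> rfl
  have hink : ∀ {w : List ℕ}, (∀ a ∈ w, a < 6) → inK w = true := fun {w} hw => by
    rw [inK, List.all_eq_true]
    intro a ha
    have := hw a ha
    interval_cases a <;> rfl
  refine ⟨hs, fixesAll_spec describes hf c₀ (List.mem_singleton_self _), ?_, fun j hj => ?_⟩
  · rw [← wperm_append, eq_of_sameOn (hink fun a ha => (List.mem_append.1 ha).elim (hs a) (hs a))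
      (hprod _ (le_of_lt hi) hsq) hsame]
    exact wProd_mem hsq
  · rw [mul_assoc, ← small_rev hs, ← wperm_append, ← wperm_append, eq_of_sameOn (hink fun a ha => ?_)
      (hprod _ (le_of_lt hi) (hcj j hj).1) (hcj j hj).2]
    · exact wProd_mem (hcj j hj).1
    · simp only [List.mem_append, List.mem_reverse] at ha
      rcases ha with ha | ha | ha
      · exact hs a ha
      · exact hsm j (by omega) a ha
      · exact hs a ha

theorem span_pgroup : ∀ n, n ≤ 12 → IsPGroup 2 (span n)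
  | 0, _ => by
    have : span 0 = ⊥ := by
      rw [span, Subgroup.closure_eq_bot_iff]
      rintro g ⟨i, hi, -⟩
      omega
    rw [this]
    exact IsPGroup.of_bot
  | n + 1, hn => by
    obtain ⟨-, -, hsq, hcj⟩ := pc_data (i := n) (by omega)
    set w := wperm σ (wg.getD n [])
    have hnorm : w ∈ Subgroup.normalizer (span n : Set (Equiv.Perm (Fin 1782))) := by
      have hle : (span n).map (MulAut.conj w).toMonoidHom ≤ span n := by
        rw [span, MonoidHom.map_closure, Subgroup.closure_le]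
        rintro _ ⟨_, ⟨j, hj, rfl⟩, rfl⟩
        exact hcj j hj
      have heq := Subgroup.eq_of_le_of_card_ge hle (le_of_eq
        (Subgroup.card_map_of_injective (MulEquiv.injective _)).symm)
      rw [Subgroup.mem_normalizer_iff]
      intro g
      conv_rhs => rw [← heq]
      rw [Subgroup.mem_map]
      constructor
      · intro hg; exact ⟨g, hg, rfl⟩
      · rintro ⟨z, hz, e⟩
        have : z = g := (MulEquiv.injective (MulAut.conj w)) e
        exact this ▸ hz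
    have hsup : span (n + 1) = span n ⊔ Subgroup.zpowers w := by
      rw [span, span, Subgroup.zpowers_eq_closure, ← Subgroup.closure_union]
      congr 1
      ext g
      constructor
      · rintro ⟨i, hi, rfl⟩
        rcases Nat.lt_succ_iff_lt_or_eq.1 hi with hi' | rfl
        · exact Or.inl ⟨i, hi', rfl⟩
        · exact Or.inr rfl
      · rintro (⟨i, hi, rfl⟩ | rfl)
        · exact ⟨i, by omega, rfl⟩
        · exact ⟨n, by omega, rfl⟩
    rw [hsup]
    exact isPGroup_sup_zpowers (span_pgroup n (by omega)) hnorm hsq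

/-- The 2-group. -/
noncomputable def W : Subgroup (Equiv.Perm (Fin 1782)) := span 12

theorem W_le : W ≤ K0 ⊓ stabilizer (Equiv.Perm (Fin 1782)) c₀ := by
  rw [W, span, Subgroup.closure_le]
  rintro _ ⟨i, hi, rfl⟩
  exact ⟨small_mem (pc_data hi).1, (pc_data hi).2.1⟩

theorem card_W : Nat.card W = 4096 := by
  have h := wChain_ok
  simp only [Bool.and_eq_true, decide_eq_true_eq, List.all_eq_true] at h
  have h1 : 4096 ≤ Nat.card W := by
    refine h.1.2.trans (chain_spec describes img_lt _ _ _ W h.1.1 fun l hl w hw _ => ?_)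
    simp only [wChain, List.mem_map] at hl
    obtain ⟨l', hl', rfl⟩ := hl
    obtain ⟨w', hw', rfl⟩ := List.mem_map.1 hw
    exact wProd_mem (h.2 l' hl' w' hw')
  haveI : Fact (Nat.Prime 2) := ⟨Nat.prime_two⟩
  obtain ⟨k, hk⟩ := IsPGroup.iff_card.1 (span_pgroup 12 le_rfl)
  have hdvd : 2 ^ k ∣ 251596800 := by
    rw [← hk, ← card_K0]; exact Subgroup.card_dvd_of_le (W_le.trans inf_le_left)
  have hk12 : k ≤ 12 := by
    by_contra hc
    have h13 : 2 ^ 13 ∣ 251596800 := (Nat.pow_dvd_pow 2 (by omega)).trans hdvd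
    norm_num at h13
  have h2 : 2 ^ k ≤ 2 ^ 12 := Nat.pow_le_pow_right (by norm_num) hk12
  rw [show span 12 = W from rfl] at hk
  omega

open scoped Pointwise

/-- The stabiliser of a set in the point stabiliser. -/
noncomputable def lineStab : Subgroup (Equiv.Perm (Fin 1782)) :=
  K0 ⊓ stabilizer (Equiv.Perm (Fin 1782)) (maskSet (maskOf lineL))

theorem mem_lineStab {g : Equiv.Perm (Fin 1782)} :
    g ∈ lineStab ↔ g ∈ K0 ∧ ∀ x, g x ∈ maskSet (maskOf lineL) ↔ x ∈ maskSet (maskOf lineL) := by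
  rw [lineStab, Subgroup.mem_inf, mem_stabilizer_set]
  exact Iff.rfl

theorem imageMask_eq_image {w l : List ℕ} (hl : ∀ u ∈ l, u < 1782) :
    maskSet (imageMask img w l) = wperm σ w '' maskSet (maskOf l) := by
  ext x
  rw [Set.mem_image]
  change Nat.testBit (imageMask img w l) x = true ↔ _
  rw [testBit_imageMask describes w l hl, ← testBit_maskOf]
  constructor
  · intro h
    exact ⟨_, h, by simp⟩
  · rintro ⟨y, hy, rfl⟩
    rw [Equiv.Perm.inv_def, Equiv.symm_apply_apply]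
    exact hy

theorem card_lineStab : Nat.card lineStab ≤ 184320 := by
  have h := lines_ok
  simp only [Bool.and_eq_true, List.all_eq_true, decide_eq_true_eq] at h
  obtain ⟨⟨hlines, hlen⟩, hL⟩ := h
  have hlt : ∀ (l : List (List ℕ)) (prev : ℕ), linesOK l prev = true → ∀ i, (hi : i < l.length) →
      inK l[i] = true ∧ prev < imageMask img l[i] lineL ∧
      ∀ j, (hj : j < l.length) → i < j → imageMask img l[i] lineL < imageMask img l[j] lineL := by
    intro l
    induction l with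
    | nil => intro _ _ i hi; exact absurd hi (by simp)
    | cons w l ih =>
      intro prev h i hi
      change (_ && _ && linesOK l _) = true at h
      simp only [Bool.and_eq_true, decide_eq_true_eq] at h
      obtain ⟨⟨hp, hw⟩, hr⟩ := h
      rcases i with _ | i
      · refine ⟨hw, hp, fun j hj hij => ?_⟩
        rcases j with _ | j
        · omega
        · exact (ih _ hr j (by simpa using hj)).2.1
      · obtain ⟨h1, h2, h3⟩ := ih _ hr i (by simpa using hi)
        refine ⟨h1, hp.trans h2, fun j hj hij => ?_⟩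
        rcases j with _ | j
        · omega
        · exact h3 j (by simpa using hj) (by omega)
  have hlen' : lineWords.length = 1365 := Nat.eq_of_beq_eq_true hlen
  let f : Fin 1365 → K0 ⧸ lineStab.subgroupOf K0 := fun k =>
    QuotientGroup.mk (⟨wperm σ (lineWords[(k : ℕ)]'(by rw [hlen']; exact k.2)),
      wperm_mem_K0 (hlt _ _ hlines k (by rw [hlen']; exact k.2)).1⟩ : K0)
  have hf : Function.Injective f := by
    intro k l e
    have hk : (k : ℕ) < lineWords.length := by rw [hlen']; exact k.2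
    have hl : (l : ℕ) < lineWords.length := by rw [hlen']; exact l.2
    have h1 := mem_lineStab.1 (Subgroup.mem_subgroupOf.1 (QuotientGroup.eq.1 e))
    have himg : wperm σ lineWords[(k : ℕ)] '' maskSet (maskOf lineL) =
        wperm σ lineWords[(l : ℕ)] '' maskSet (maskOf lineL) := by
      ext x
      simp only [Set.mem_image]
      constructor
      · rintro ⟨y, hy, rfl⟩
        refine ⟨((wperm σ lineWords[(l : ℕ)])⁻¹ * wperm σ lineWords[(k : ℕ)]) y, ?_, by simp⟩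
        have := (h1.2 (((wperm σ lineWords[(l : ℕ)])⁻¹ * wperm σ lineWords[(k : ℕ)]) y)).1
        exact this (by simpa using hy)
      · rintro ⟨y, hy, rfl⟩
        refine ⟨((wperm σ lineWords[(k : ℕ)])⁻¹ * wperm σ lineWords[(l : ℕ)]) y, ?_, by simp⟩
        have := (h1.2 y).2 hy
        simpa using this
    rw [← imageMask_eq_image hL, ← imageMask_eq_image hL] at himg
    by_contra hne
    have hbits : ∀ w, ∀ i, 1782 ≤ i → Nat.testBit (imageMask img w lineL) i = false := by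
      intro w i hi
      rw [← Bool.not_eq_true, imageMask, testBit_maskOf, List.mem_map]
      rintro ⟨u, hu, e⟩
      have : ev img w u < 1782 := by
        rw [← ev_eq describes w ⟨u, hL u hu⟩]; exact Fin.isLt _
      omega
    have heq : imageMask img lineWords[(k : ℕ)] lineL = imageMask img lineWords[(l : ℕ)] lineL := by
      refine Nat.eq_of_testBit_eq fun i => ?_
      by_cases hi : i < 1782
      · rw [Bool.eq_iff_iff]; exact Set.ext_iff.1 himg ⟨i, hi⟩
      · rw [hbits _ i (by omega), hbits _ i (by omega)]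
    rcases Nat.lt_or_ge (k : ℕ) l with h' | h'
    · exact absurd heq ((hlt _ _ hlines k hk).2.2 l hl h').ne
    · exact absurd heq.symm ((hlt _ _ hlines l hl).2.2 k hk (lt_of_le_of_ne h' fun e => hne (Fin.ext e.symm))).ne
  have h1 := Nat.card_le_card_of_injective f hf
  rw [Nat.card_fin] at h1
  have h2 := Subgroup.card_mul_index (lineStab.subgroupOf K0)
  rw [Nat.card_congr (Subgroup.subgroupOfEquivOfLe (H := lineStab) inf_le_left).toEquiv, card_K0,
    Subgroup.index] at h2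
  nlinarith

theorem card_stab1365 {p : Fin 1782} (hp : p ∈ orbit K0 c₀) :
    Nat.card ↥(K0 ⊓ stabilizer (Equiv.Perm (Fin 1782)) p) = 184320 := by
  have h := ncard_orbit_mul_stab K0 p
  rw [orbit_eq_iff.2 hp, orbit1365.1, orbit1365.2, card_K0] at h
  have e : Nat.card ↥(K0 ⊓ stabilizer (Equiv.Perm (Fin 1782)) p) = Nat.card (stabilizer K0 p) :=
    Nat.card_congr
      { toFun := fun s => ⟨⟨s.1, s.2.1⟩, s.2.2⟩
        invFun := fun s => ⟨s.1.1, s.1.2, s.2⟩
        left_inv := fun _ => rfl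
        right_inv := fun _ => rfl }
  omega

variable {Q : Subgroup (Equiv.Perm (Fin 1782))}

theorem far_aux (hle : Q ≤ K0) (hQ : Nat.card Q = 184320) (hW : W ≤ Q) :
    Q = K0 ⊓ stabilizer (Equiv.Perm (Fin 1782)) c₀ ∨ Q = lineStab := by
  have h := wOrbits_ok
  simp only [Bool.and_eq_true, List.all_eq_true, List.any_eq_true, decide_eq_true_eq] at h
  obtain ⟨⟨⟨⟨⟨⟨⟨⟨⟨⟨⟨⟨⟨⟨⟨⟨h0, h1⟩, h2⟩, h3⟩, h4⟩, h5⟩, hg⟩, hcov⟩, n0⟩, n1⟩, n2⟩, n3⟩, n4⟩, n5⟩, hline⟩, hr0⟩, hm0⟩ := h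
  set O : Set (Fin 1782) := orbit Q c₀ with hO
  have hsub : O ⊆ maskSet mskK2_0 := by
    rw [← orbit1365.1]
    rintro _ ⟨g, rfl⟩
    exact ⟨⟨g, hle g.2⟩, rfl⟩
  have hinv : ∀ g ∈ Q, ∀ x ∈ O, g x ∈ O := by
    rintro g hg _ ⟨t, rfl⟩
    exact ⟨⟨g, hg⟩ * t, rfl⟩
  have hgW : ∀ w ∈ gensW, wperm σ w ∈ W := by
    intro w hw
    obtain ⟨v, hv, rfl⟩ := hg w hw
    obtain ⟨i, hi, rfl⟩ := List.getElem_of_mem hv
    have hlen := pc_ok
    simp only [Bool.and_eq_true] at hlen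
    refine Subgroup.subset_closure ⟨i, ?_, by rw [List.getD_eq_getElem wg [] hi]⟩
    rw [← Nat.eq_of_beq_eq_true hlen.2]; exact hi
  have b : ∀ {es : List (ℕ × ℕ × ℕ)} {r m : ℕ}, connOK gensW es r m = true → r < 1782 →
      maskSet m ⊆ O ∨ Disjoint (maskSet m) O :=
    fun hc hr => block hc hr hgW fun g hg => hinv g (hW hg)
  have hdiv : O.ncard ∣ 45 := by
    have e1 := ncard_orbit_mul_stab Q c₀
    have e2 : 4096 ∣ Nat.card (stabilizer Q c₀) := by
      rw [← card_W]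
      exact Subgroup.card_dvd_of_injective
        ({ toFun := fun w => ⟨⟨w.1, hW w.2⟩, (W_le w.2).2⟩
           map_one' := rfl
           map_mul' := fun _ _ => rfl } : W →* stabilizer Q c₀)
        fun w w' e => Subtype.ext (congrArg (fun q : stabilizer Q c₀ => ((q : Q) : Equiv.Perm (Fin 1782))) e)
    obtain ⟨q, hq⟩ := e2
    rw [hq, hQ] at e1
    exact ⟨q, by rw [show O.ncard = (orbit Q c₀).ncard from rfl]; linarith⟩
  have hOle : O.ncard ≤ 45 := Nat.le_of_dvd (by norm_num) hdiv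
  have small : ∀ {m n : ℕ}, (maskSet m ⊆ O ∨ Disjoint (maskSet m) O) → Nat.beq (maskCount 1782 m) n = true →
      45 < n → Disjoint (maskSet m) O := by
    intro m n hb hn h45
    refine hb.resolve_left fun hs => ?_
    have := Set.ncard_le_ncard hs
    rw [ncard_maskSet, Nat.eq_of_beq_eq_true hn] at this
    omega
  have d1 := small (b h1 (by norm_num)) n1 (by norm_num)
  have d3 := small (b h3 (by norm_num)) n3 (by norm_num)
  have d5 := small (b h5 (by norm_num)) n5 (by norm_num)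
  have hc0 : c₀ ∈ maskSet mskW_0 := hr0
  have s0 : maskSet mskW_0 ⊆ O := (b h0 (by norm_num)).resolve_right
    (Set.not_disjoint_iff.2 ⟨c₀, hc0, mem_orbit_self _⟩)
  have hparts : O = maskSet mskW_0 ∪ (O ∩ maskSet mskW_2) ∪ (O ∩ maskSet mskW_4) := by
    refine subset_antisymm (fun x hx => ?_) (Set.union_subset (Set.union_subset s0 Set.inter_subset_left) Set.inter_subset_left)
    have := hsub hx
    rw [Nat.eq_of_beq_eq_true hcov, maskSet_lor, maskSet_lor, maskSet_lor, maskSet_lor, maskSet_lor] at this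
    rcases this with ((h | h) | (h | h)) | (h | h)
    · exact Or.inl (Or.inl h)
    · exact absurd hx (Set.disjoint_left.1 d1 h)
    · exact Or.inl (Or.inr ⟨hx, h⟩)
    · exact absurd hx (Set.disjoint_left.1 d3 h)
    · exact Or.inr ⟨hx, h⟩
    · exact absurd hx (Set.disjoint_left.1 d5 h)
  have c0 : (maskSet mskW_0).ncard = 1 := by rw [ncard_maskSet]; exact Nat.eq_of_beq_eq_true n0
  have c2 : (maskSet mskW_2).ncard = 4 := by rw [ncard_maskSet]; exact Nat.eq_of_beq_eq_true n2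
  have c4 : (maskSet mskW_4).ncard = 16 := by rw [ncard_maskSet]; exact Nat.eq_of_beq_eq_true n4
  have hdisj : Disjoint (maskSet mskW_0) (maskSet mskW_2) ∧ Disjoint (maskSet mskW_0) (maskSet mskW_4) ∧
      Disjoint (maskSet mskW_2) (maskSet mskW_4) := by
    have hsum : (maskSet mskW_0 ∪ maskSet mskW_1 ∪ (maskSet mskW_2 ∪ maskSet mskW_3) ∪
        (maskSet mskW_4 ∪ maskSet mskW_5)).ncard = 1365 := by
      rw [← maskSet_lor, ← maskSet_lor, ← maskSet_lor, ← maskSet_lor, ← maskSet_lor, ← Nat.eq_of_beq_eq_true hcov]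
      exact orbit1365.2
    have c1 : (maskSet mskW_1).ncard = 1024 := by rw [ncard_maskSet]; exact Nat.eq_of_beq_eq_true n1
    have c3 : (maskSet mskW_3).ncard = 64 := by rw [ncard_maskSet]; exact Nat.eq_of_beq_eq_true n3
    have c5 : (maskSet mskW_5).ncard = 256 := by rw [ncard_maskSet]; exact Nat.eq_of_beq_eq_true n5
    have u1 := Set.ncard_union_add_ncard_inter (maskSet mskW_0 ∪ maskSet mskW_1 ∪ (maskSet mskW_2 ∪ maskSet mskW_3))
      (maskSet mskW_4 ∪ maskSet mskW_5)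
    have u2 := Set.ncard_union_add_ncard_inter (maskSet mskW_0 ∪ maskSet mskW_1) (maskSet mskW_2 ∪ maskSet mskW_3)
    have u3 := Set.ncard_union_le (maskSet mskW_0) (maskSet mskW_1)
    have u4 := Set.ncard_union_le (maskSet mskW_2) (maskSet mskW_3)
    have u5 := Set.ncard_union_le (maskSet mskW_4) (maskSet mskW_5)
    have z1 : ((maskSet mskW_0 ∪ maskSet mskW_1 ∪ (maskSet mskW_2 ∪ maskSet mskW_3)) ∩
      (maskSet mskW_4 ∪ maskSet mskW_5)) = ∅ := (Set.ncard_eq_zero).1 (by omega)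
    have z2 : ((maskSet mskW_0 ∪ maskSet mskW_1) ∩ (maskSet mskW_2 ∪ maskSet mskW_3)) = ∅ :=
      (Set.ncard_eq_zero).1 (by omega)
    refine ⟨?_, ?_, ?_⟩ <;> rw [Set.disjoint_left] <;> intro x hx hy
    · exact (Set.eq_empty_iff_forall_notMem.1 z2 x) ⟨Or.inl hx, Or.inl hy⟩
    · exact (Set.eq_empty_iff_forall_notMem.1 z1 x) ⟨Or.inl (Or.inl hx), Or.inl hy⟩
    · exact (Set.eq_empty_iff_forall_notMem.1 z1 x) ⟨Or.inr (Or.inl hx), Or.inl hy⟩
  have hL : maskSet (maskOf lineL) = maskSet mskW_0 ∪ maskSet mskW_2 := by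
    rw [Nat.eq_of_beq_eq_true hline, maskSet_lor]
  rcases b h2 (by norm_num) with s2 | s2 <;> rcases b h4 (by norm_num) with s4 | s4
  · exfalso
    rw [hparts, Set.inter_eq_right.2 s2, Set.inter_eq_right.2 s4,
      Set.ncard_union_eq (Set.disjoint_union_left.2 ⟨hdisj.2.1, hdisj.2.2⟩), Set.ncard_union_eq hdisj.1, c0, c2, c4] at hdiv
    norm_num at hdiv
  · right
    rw [Set.inter_eq_right.2 s2, Set.disjoint_iff_inter_eq_empty.1 s4.symm, Set.union_empty, ← hL] at hparts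
    refine Subgroup.eq_of_le_of_card_ge (fun g hgQ => mem_lineStab.2 ⟨hle hgQ, fun x => ?_⟩) (by rw [hQ]; exact card_lineStab)
    rw [← hparts]
    refine ⟨fun hx => ?_, fun hx => hinv g hgQ x hx⟩
    have := hinv g⁻¹ (inv_mem hgQ) _ hx
    simpa using this
  · exfalso
    rw [hparts, Set.disjoint_iff_inter_eq_empty.1 s2.symm, Set.inter_eq_right.2 s4, Set.union_empty,
      Set.ncard_union_eq hdisj.2.1, c0, c4] at hdiv
    norm_num at hdiv
  · left
    rw [Set.disjoint_iff_inter_eq_empty.1 s2.symm, Set.disjoint_iff_inter_eq_empty.1 s4.symm, Set.union_empty,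
      Set.union_empty] at hparts
    refine Subgroup.eq_of_le_of_card_ge (le_inf hle fun g hgQ => mem_stabilizer_iff.2 ?_)
      (by rw [hQ, card_stab1365 (mem_orbit_self _)])
    have hmem : g c₀ ∈ maskSet mskW_0 := by rw [← hparts]; exact hinv g hgQ c₀ (mem_orbit_self _)
    change Nat.testBit mskW_0 (g c₀ : ℕ) = true at hmem
    rw [Nat.eq_of_beq_eq_true hm0] at hmem
    change Nat.testBit (1 <<< 1) _ = true at hmem
    rw [Nat.one_shiftLeft, Nat.testBit_two_pow, decide_eq_true_eq] at hmem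
    exact Fin.ext hmem.symm

/-- A subgroup of index 1365 is a point stabiliser or a conjugate of the line stabiliser. -/
theorem index_1365 (hle : Q ≤ K0) (hQ : Nat.card Q = 184320) :
    (∃ p ∈ orbit K0 c₀, Q = K0 ⊓ stabilizer (Equiv.Perm (Fin 1782)) p) ∨
      ∃ γ ∈ K0, ∀ y, y ∈ Q ↔ γ⁻¹ * y * γ ∈ lineStab := by
  haveI : Fact (Nat.Prime 2) := ⟨Nat.prime_two⟩
  have hidx : (Q.subgroupOf K0).index = 1365 := by
    have h1 := Subgroup.card_mul_index (Q.subgroupOf K0)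
    rw [Nat.card_congr (Subgroup.subgroupOfEquivOfLe hle).toEquiv, hQ, card_K0] at h1
    omega
  have hWK : W ≤ K0 := W_le.trans inf_le_left
  obtain ⟨g, hg⟩ := exists_conj_le (p := 2) (Q.subgroupOf K0) (W.subgroupOf K0) (by rw [hidx]; norm_num)
    ((span_pgroup 12 le_rfl).of_equiv (Subgroup.subgroupOfEquivOfLe hWK).symm)
  set γ : Equiv.Perm (Fin 1782) := (g : Equiv.Perm (Fin 1782)) with hγ
  set Q' : Subgroup (Equiv.Perm (Fin 1782)) := Q.map (MulAut.conj γ⁻¹).toMonoidHom with hQ'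
  have mem' : ∀ y, y ∈ Q' ↔ γ * y * γ⁻¹ ∈ Q := fun y => by
    rw [hQ', Subgroup.mem_map]
    constructor
    · rintro ⟨z, hz, rfl⟩
      simpa [mul_assoc] using hz
    · intro hy
      exact ⟨_, hy, by simp [mul_assoc]⟩
  have hQ'le : Q' ≤ K0 := fun y hy => by
    have := mul_mem (mul_mem (inv_mem g.2) (hle ((mem' y).1 hy))) g.2
    simpa [hγ, mul_assoc] using this
  have hQ'card : Nat.card Q' = 184320 := by
    rw [hQ', Subgroup.card_map_of_injective (MulEquiv.injective _), hQ]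
  have hW' : W ≤ Q' := fun w hw => by
    rw [mem']
    exact Subgroup.mem_subgroupOf.1 (hg ⟨w, hWK hw⟩ (Subgroup.mem_subgroupOf.2 hw))
  have hy : ∀ y, y ∈ Q ↔ γ⁻¹ * y * γ ∈ Q' := fun y => by rw [mem']; simp [mul_assoc]
  rcases far_aux hQ'le hQ'card hW' with e | e
  · refine Or.inl ⟨γ c₀, ⟨g, rfl⟩, ?_⟩
    ext y
    rw [hy, e, Subgroup.mem_inf, Subgroup.mem_inf, mem_stabilizer_iff, mem_stabilizer_iff]
    refine and_congr ⟨fun h => ?_, fun h => mul_mem (mul_mem (inv_mem g.2) h) g.2⟩ ?_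
    · have := mul_mem (mul_mem g.2 h) (inv_mem g.2)
      simpa [hγ, mul_assoc] using this
    · change (γ⁻¹ * y * γ) c₀ = c₀ ↔ y (γ c₀) = γ c₀
      rw [Equiv.Perm.mul_apply, Equiv.Perm.mul_apply, Equiv.Perm.inv_def, Equiv.symm_apply_eq]
  · exact Or.inr ⟨γ, g.2, fun y => by rw [hy, e]⟩

/-- The sizes of the parts of an invariant subset of the first suborbit. -/
theorem near_parts {B : Set (Fin 1782)} (hsub : B ⊆ maskSet mskK1_0) (hb : b₀ ∉ B)
    (hinv : ∀ g ∈ K0, g b₀ = b₀ → ∀ y ∈ B, g y ∈ B) :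
    B.ncard = part B mskJ_1 + part B mskJ_2 ∧
    (maskSet mskJ_1 ⊆ B ∨ Disjoint (maskSet mskJ_1) B) ∧ (maskSet mskJ_2 ⊆ B ∨ Disjoint (maskSet mskJ_2) B) ∧
    ∀ x ∈ B, ∃ m ∈ [mskJ_1, mskJ_2], x ∈ maskSet m := by
  have h := nearStab_ok
  simp only [Bool.and_eq_true, List.all_eq_true] at h
  obtain ⟨⟨⟨⟨⟨⟨⟨⟨h0, h1⟩, h2⟩, hg⟩, hcov⟩, hr0⟩, n0⟩, n1⟩, n2⟩ := h
  have hL : ∀ w ∈ gensJ, wperm σ w ∈ K0 ⊓ stabilizer (Equiv.Perm (Fin 1782)) b₀ := fun w hw =>
    ⟨wperm_mem_K0 (hg w hw).1, fixesAll_spec describes (hg w hw).2 b₀ (List.mem_singleton_self _)⟩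
  have hi : ∀ g ∈ K0 ⊓ stabilizer (Equiv.Perm (Fin 1782)) b₀, ∀ x ∈ B, g x ∈ B :=
    fun g hg => hinv g hg.1 hg.2
  have b1 := block h1 (by norm_num) hL hi
  have b2 := block h2 (by norm_num) hL hi
  have d0 : Disjoint (maskSet mskJ_0) B :=
    (block h0 (by norm_num) hL hi).resolve_left fun hs => hb (hs hr0)
  have hB : ∀ x ∈ B, ∃ m ∈ [mskJ_1, mskJ_2], x ∈ maskSet m := by
    intro x hx
    have := hsub hx
    rw [Nat.eq_of_beq_eq_true hcov, maskSet_lor, maskSet_lor] at this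
    rcases this with (h | h) | h
    · exact absurd hx (Set.disjoint_left.1 d0 h)
    · exact ⟨_, List.mem_cons_self .., h⟩
    · exact ⟨_, List.mem_cons_of_mem _ (List.mem_cons_self ..), h⟩
  refine ⟨?_, b1, b2, hB⟩
  rw [← part_eq b1, ← part_eq b2]
  have e : B = B ∩ maskSet mskJ_1 ∪ B ∩ maskSet mskJ_2 := by
    refine subset_antisymm (fun x hx => ?_) (Set.union_subset Set.inter_subset_left Set.inter_subset_left)
    obtain ⟨m, hm, hxm⟩ := hB x hx
    simp only [List.mem_cons, List.not_mem_nil, or_false] at hm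
    rcases hm with rfl | rfl
    · exact Or.inl ⟨hx, hxm⟩
    · exact Or.inr ⟨hx, hxm⟩
  conv_lhs => rw [e]
  refine Set.ncard_union_eq ?_
  have hu := Set.ncard_union_add_ncard_inter (maskSet mskJ_0 ∪ maskSet mskJ_1) (maskSet mskJ_2)
  rw [← maskSet_lor, ← maskSet_lor, ← Nat.eq_of_beq_eq_true hcov, orbit416.2] at hu
  have hu0 := Set.ncard_union_le (maskSet mskJ_0) (maskSet mskJ_1)
  rw [← maskSet_lor] at hu0
  rw [ncard_maskSet mskJ_0, ncard_maskSet mskJ_1, Nat.eq_of_beq_eq_true n0, Nat.eq_of_beq_eq_true n1] at hu0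
  rw [ncard_maskSet mskJ_2, Nat.eq_of_beq_eq_true n2] at hu
  have z : maskSet (Nat.lor mskJ_0 mskJ_1) ∩ maskSet mskJ_2 = ∅ := (Set.ncard_eq_zero (Set.toFinite _)).1 (by omega)
  rw [Set.disjoint_left]
  rintro x ⟨-, h1x⟩ ⟨-, h2x⟩
  exact Set.eq_empty_iff_forall_notMem.1 z x ⟨by rw [maskSet_lor]; exact Or.inr h1x, h2x⟩

theorem near_size {B : Set (Fin 1782)} (hsub : B ⊆ maskSet mskK1_0) (hb : b₀ ∉ B)
    (hinv : ∀ g ∈ K0, g b₀ = b₀ → ∀ y ∈ B, g y ∈ B) (hlt : B.ncard + 1 < 416)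
    (hdvd : 1365 ∣ 416 * (416 - 1 - B.ncard)) : B.ncard = 100 ∧ part B mskJ_1 = 0 ∧ part B mskJ_2 = 100 := by
  obtain ⟨hn, -, -, -⟩ := near_parts hsub hb hinv
  have h := nearStab_ok
  simp only [Bool.and_eq_true] at h
  obtain ⟨⟨-, n1⟩, n2⟩ := h
  rw [part, part] at hn ⊢
  rw [Nat.eq_of_beq_eq_true n1, Nat.eq_of_beq_eq_true n2] at hn ⊢
  split_ifs at hn ⊢ <;> rw [hn] at hdvd hlt <;> first | omega | norm_num at hdvd

/-- The unions of orbits of the point stabiliser on the first suborbit. -/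
theorem farNear_parts {B : Set (Fin 1782)} (hsub : B ⊆ maskSet mskK1_0)
    (hinv : ∀ g ∈ K0, g c₀ = c₀ → ∀ y ∈ B, g y ∈ B) :
    B.ncard = part B mskP1a_0 + part B mskP1a_1 ∧
    (maskSet mskP1a_0 ⊆ B ∨ Disjoint (maskSet mskP1a_0) B) ∧ (maskSet mskP1a_1 ⊆ B ∨ Disjoint (maskSet mskP1a_1) B) := by
  have h := farStab_ok
  simp only [Bool.and_eq_true, List.all_eq_true] at h
  obtain ⟨⟨⟨⟨⟨⟨⟨⟨⟨⟨⟨⟨⟨⟨⟨⟨h0, h1⟩, -⟩, -⟩, -⟩, -⟩, hg⟩, -⟩, hcov⟩, -⟩, -⟩, n0⟩, n1⟩, -⟩, -⟩, -⟩, -⟩ := h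
  have hL : ∀ w ∈ gensP1a, wperm σ w ∈ K0 ⊓ stabilizer (Equiv.Perm (Fin 1782)) c₀ := fun w hw =>
    ⟨wperm_mem_K0 (hg w hw).1, fixesAll_spec describes (hg w hw).2 c₀ (List.mem_singleton_self _)⟩
  have hi : ∀ g ∈ K0 ⊓ stabilizer (Equiv.Perm (Fin 1782)) c₀, ∀ x ∈ B, g x ∈ B :=
    fun g hg => hinv g hg.1 hg.2
  refine ⟨?_, block h0 (by norm_num) hL hi, block h1 (by norm_num) hL hi⟩
  rw [← part_eq (block h0 (by norm_num) hL hi), ← part_eq (block h1 (by norm_num) hL hi),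
    ← ncard_split _ _ B ?_, ← Nat.eq_of_beq_eq_true hcov, Set.inter_eq_left.2 hsub]
  rw [← Nat.eq_of_beq_eq_true hcov, Nat.eq_of_beq_eq_true n0, Nat.eq_of_beq_eq_true n1, ← ncard_maskSet,
    orbit416.2]

/-- The unions of orbits of the line stabiliser on the first suborbit. -/
theorem line_parts {B : Set (Fin 1782)} (hsub : B ⊆ maskSet mskK1_0)
    (hinv : ∀ g ∈ lineStab, ∀ y ∈ B, g y ∈ B) : B.ncard ≠ 96 := by
  have h := lineStab_ok
  simp only [Bool.and_eq_true, List.all_eq_true] at h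
  obtain ⟨⟨⟨⟨⟨h0, h1⟩, hg⟩, hcov⟩, n0⟩, n1⟩ := h
  have hl := lines_ok
  simp only [Bool.and_eq_true, List.all_eq_true, decide_eq_true_eq] at hl
  have hL : ∀ w ∈ gensP2, wperm σ w ∈ lineStab := fun w hw => by
    refine mem_lineStab.2 ⟨wperm_mem_K0 (hg w hw).1, fun x => ?_⟩
    have e := congrArg maskSet (Nat.eq_of_beq_eq_true (hg w hw).2)
    rw [imageMask_eq_image hl.2] at e
    constructor
    · intro hx
      rw [← e] at hx
      obtain ⟨y, hy, hyx⟩ := hx
      rwa [← (wperm σ w).injective hyx]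
    · intro hx
      rw [← e]
      exact ⟨x, hx, rfl⟩
  have e : B.ncard = part B mskP2_0 + part B mskP2_1 := by
    rw [← part_eq (block h0 (by norm_num) hL hinv), ← part_eq (block h1 (by norm_num) hL hinv),
      ← ncard_split _ _ B ?_, ← Nat.eq_of_beq_eq_true hcov, Set.inter_eq_left.2 hsub]
    rw [← Nat.eq_of_beq_eq_true hcov, Nat.eq_of_beq_eq_true n0, Nat.eq_of_beq_eq_true n1, ← ncard_maskSet,
      orbit416.2]
  rw [e, part, part, Nat.eq_of_beq_eq_true n0, Nat.eq_of_beq_eq_true n1]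
  split_ifs <;> omega

/-- The unions of orbits of the point stabiliser on the second suborbit. -/
theorem farFar_parts {B : Set (Fin 1782)} (hsub : B ⊆ maskSet mskK2_0) (hc : c₀ ∉ B)
    (hinv : ∀ g ∈ K0, g c₀ = c₀ → ∀ y ∈ B, g y ∈ B) :
    B.ncard = part B mskP1b_1 + part B mskP1b_2 + part B mskP1b_3 ∧
    ∀ m ∈ [mskP1b_0, mskP1b_1, mskP1b_2, mskP1b_3], maskSet m ⊆ B ∨ Disjoint (maskSet m) B := by
  have h := farStab_ok
  simp only [Bool.and_eq_true, List.all_eq_true] at h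
  obtain ⟨⟨⟨⟨⟨⟨⟨⟨⟨⟨⟨⟨⟨⟨⟨⟨-, -⟩, h0⟩, h1⟩, h2⟩, h3⟩, -⟩, hg⟩, -⟩, hcov⟩, hr0⟩, -⟩, -⟩, n0⟩, n1⟩, n2⟩, n3⟩ := h
  have hL : ∀ w ∈ gensP1b, wperm σ w ∈ K0 ⊓ stabilizer (Equiv.Perm (Fin 1782)) c₀ := fun w hw =>
    ⟨wperm_mem_K0 (hg w hw).1, fixesAll_spec describes (hg w hw).2 c₀ (List.mem_singleton_self _)⟩
  have hi : ∀ g ∈ K0 ⊓ stabilizer (Equiv.Perm (Fin 1782)) c₀, ∀ x ∈ B, g x ∈ B :=
    fun g hg => hinv g hg.1 hg.2
  have b0 := block h0 (by norm_num) hL hi
  have b1 := block h1 (by norm_num) hL hi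
  have b2 := block h2 (by norm_num) hL hi
  have b3 := block h3 (by norm_num) hL hi
  refine ⟨?_, ?_⟩
  · have hp0 : part B mskP1b_0 = 0 := by rw [part, if_neg fun hs => hc (hs hr0)]
    have hsplit : ∀ {m m' : ℕ}, maskCount 1782 (Nat.lor m m') ≤ maskCount 1782 m + maskCount 1782 m' := by
      intro m m'
      rw [← ncard_maskSet, ← ncard_maskSet, ← ncard_maskSet, maskSet_lor]
      exact Set.ncard_union_le _ _
    have hall : maskCount 1782 (Nat.lor (Nat.lor mskP1b_0 mskP1b_1) (Nat.lor mskP1b_2 mskP1b_3)) = 1365 := by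
      rw [← Nat.eq_of_beq_eq_true hcov, ← ncard_maskSet, orbit1365.2]
    have s1 := hsplit (m := Nat.lor mskP1b_0 mskP1b_1) (m' := Nat.lor mskP1b_2 mskP1b_3)
    have s2 := hsplit (m := mskP1b_0) (m' := mskP1b_1)
    have s3 := hsplit (m := mskP1b_2) (m' := mskP1b_3)
    rw [hall] at s1
    rw [Nat.eq_of_beq_eq_true n0, Nat.eq_of_beq_eq_true n1] at s2
    rw [Nat.eq_of_beq_eq_true n2, Nat.eq_of_beq_eq_true n3] at s3
    conv_lhs => rw [← Set.inter_eq_left.2 hsub, Nat.eq_of_beq_eq_true hcov]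
    rw [ncard_split _ _ B (by omega),
      ncard_split _ _ B (by rw [Nat.eq_of_beq_eq_true n0, Nat.eq_of_beq_eq_true n1]; omega),
      ncard_split _ _ B (by rw [Nat.eq_of_beq_eq_true n2, Nat.eq_of_beq_eq_true n3]; omega),
      part_eq b0, part_eq b1, part_eq b2, part_eq b3, hp0]
    omega
  · intro m hm
    simp only [List.mem_cons, List.not_mem_nil, or_false] at hm
    rcases hm with rfl | rfl | rfl | rfl <;> assumption

theorem forced : Forced S a₀ b₀ c₀ 416 1365 := by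
  have toK : ∀ {B : Set (Fin 1782)} {z : Fin 1782},
      (∀ s : S, s • a₀ = a₀ → s • z = z → ∀ y ∈ B, s • y ∈ B) → ∀ g ∈ K0, g z = z → ∀ y ∈ B, g y ∈ B :=
    fun h g hg hz y hy => h ⟨g, K0_le_S hg⟩ (K0_fix hg) hz y hy
  constructor
  · intro A A' h
    have key : ∀ B ∈ [A, A'], B ⊆ maskSet mskK1_0 ∧ b₀ ∉ B ∧ (∀ g ∈ K0, g b₀ = b₀ → ∀ y ∈ B, g y ∈ B) ∧
        part B mskJ_1 = 0 ∧ part B mskJ_2 = 100 := by
      intro B hB
      obtain ⟨h1, h2, h3, h4, h5⟩ := h B hB
      rw [orbit_stab, orbit416.1] at h1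
      obtain ⟨-, e1, e2⟩ := near_size h1 h2 (toK h3) h4 h5
      exact ⟨h1, h2, toK h3, e1, e2⟩
    obtain ⟨a1, a2, a3, a4, a5⟩ := key A (List.mem_cons_self ..)
    obtain ⟨c1, c2, c3, c4, c5⟩ := key A' (List.mem_cons_of_mem _ (List.mem_cons_self ..))
    obtain ⟨-, p1, p2, hA⟩ := near_parts a1 a2 a3
    obtain ⟨-, q1, q2, hA'⟩ := near_parts c1 c2 c3
    have hn := nearStab_ok
    simp only [Bool.and_eq_true] at hn
    refine eq_of_parts [mskJ_1, mskJ_2] hA hA' ?_
    intro m hm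
    simp only [List.mem_cons, List.not_mem_nil, or_false] at hm
    rcases hm with rfl | rfl
    · exact inter_eq p1 q1 (by rw [Nat.eq_of_beq_eq_true hn.1.2]; norm_num) (a4.trans c4.symm)
    · exact inter_eq p2 q2 (by rw [Nat.eq_of_beq_eq_true hn.2]; norm_num) (a5.trans c5.symm)
  · intro A A' h hcard
    have key : ∀ B ∈ [A, A'], B ⊆ maskSet mskK1_0 ∧ ∀ g ∈ K0, g c₀ = c₀ → ∀ y ∈ B, g y ∈ B := by
      intro B hB
      obtain ⟨h1, h2⟩ := h B hB
      rw [orbit_stab, orbit416.1] at h1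
      exact ⟨h1, toK h2⟩
    obtain ⟨a1, a2⟩ := key A (List.mem_cons_self ..)
    obtain ⟨c1, c2⟩ := key A' (List.mem_cons_of_mem _ (List.mem_cons_self ..))
    obtain ⟨na, p1, p2⟩ := farNear_parts a1 a2
    obtain ⟨nc, q1, q2⟩ := farNear_parts c1 c2
    have hn := farStab_ok
    simp only [Bool.and_eq_true] at hn
    obtain ⟨⟨⟨⟨⟨⟨⟨⟨⟨⟨⟨⟨⟨⟨⟨⟨-, -⟩, -⟩, -⟩, -⟩, -⟩, -⟩, -⟩, hcov⟩, -⟩, -⟩, n0⟩, n1⟩, -⟩, -⟩, -⟩, -⟩ := hn
    have hmem : ∀ B : Set (Fin 1782), B ⊆ maskSet mskK1_0 → ∀ x ∈ B, ∃ m ∈ [mskP1a_0, mskP1a_1], x ∈ maskSet m := by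
      intro B hB x hx
      have := hB hx
      rw [Nat.eq_of_beq_eq_true hcov, maskSet_lor] at this
      rcases this with h | h
      · exact ⟨_, List.mem_cons_self .., h⟩
      · exact ⟨_, List.mem_cons_of_mem _ (List.mem_cons_self ..), h⟩
    have hboth : part A mskP1a_0 = part A' mskP1a_0 ∧ part A mskP1a_1 = part A' mskP1a_1 := by
      have e := na.symm.trans (hcard.trans nc)
      rw [part, part, part, part, Nat.eq_of_beq_eq_true n0, Nat.eq_of_beq_eq_true n1] at e ⊢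
      constructor <;> split_ifs at e ⊢ <;> omega
    refine eq_of_parts [mskP1a_0, mskP1a_1] (hmem A a1) (hmem A' c1) ?_
    intro m hm
    simp only [List.mem_cons, List.not_mem_nil, or_false] at hm
    rcases hm with rfl | rfl
    · exact inter_eq p1 q1 (by rw [Nat.eq_of_beq_eq_true n0]; norm_num) hboth.1
    · exact inter_eq p2 q2 (by rw [Nat.eq_of_beq_eq_true n1]; norm_num) hboth.2
  · intro A A' h hcard
    have key : ∀ B ∈ [A, A'], B ⊆ maskSet mskK2_0 ∧ c₀ ∉ B ∧ ∀ g ∈ K0, g c₀ = c₀ → ∀ y ∈ B, g y ∈ B := by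
      intro B hB
      obtain ⟨h1, h2, h3⟩ := h B hB
      rw [orbit_stab, orbit1365.1] at h1
      exact ⟨h1, h2, toK h3⟩
    obtain ⟨a1, a2, a3⟩ := key A (List.mem_cons_self ..)
    obtain ⟨c1, c2, c3⟩ := key A' (List.mem_cons_of_mem _ (List.mem_cons_self ..))
    obtain ⟨na, p⟩ := farFar_parts a1 a2 a3
    obtain ⟨nc, q⟩ := farFar_parts c1 c2 c3
    have hn := farStab_ok
    simp only [Bool.and_eq_true] at hn
    obtain ⟨⟨⟨⟨⟨⟨⟨⟨⟨⟨⟨⟨⟨⟨⟨⟨-, -⟩, -⟩, -⟩, -⟩, -⟩, -⟩, -⟩, -⟩, hcov⟩, hr0⟩, -⟩, -⟩, n0⟩, n1⟩, n2⟩, n3⟩ := hn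
    have hmem : ∀ B : Set (Fin 1782), B ⊆ maskSet mskK2_0 →
        ∀ x ∈ B, ∃ m ∈ [mskP1b_0, mskP1b_1, mskP1b_2, mskP1b_3], x ∈ maskSet m := by
      intro B hB x hx
      have := hB hx
      rw [Nat.eq_of_beq_eq_true hcov, maskSet_lor, maskSet_lor, maskSet_lor] at this
      rcases this with (h | h) | (h | h)
      · exact ⟨_, List.mem_cons_self .., h⟩
      · exact ⟨_, List.mem_cons_of_mem _ (List.mem_cons_self ..), h⟩
      · exact ⟨_, List.mem_cons_of_mem _ (List.mem_cons_of_mem _ (List.mem_cons_self ..)), h⟩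
      · exact ⟨_, List.mem_cons_of_mem _ (List.mem_cons_of_mem _ (List.mem_cons_of_mem _ (List.mem_cons_self ..))), h⟩
    have e := na.symm.trans (hcard.trans nc)
    refine eq_of_parts _ (hmem A a1) (hmem A' c1) ?_
    intro m hm
    have hp := p m hm
    have hq := q m hm
    simp only [List.mem_cons, List.not_mem_nil, or_false] at hm
    rcases hm with rfl | rfl | rfl | rfl
    · refine inter_eq hp hq (by rw [Nat.eq_of_beq_eq_true n0]; norm_num) ?_
      rw [part, part, if_neg fun hs => a2 (hs hr0), if_neg fun hs => c2 (hs hr0)]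
    all_goals
      refine inter_eq hp hq (by
        simp only [Nat.eq_of_beq_eq_true n1, Nat.eq_of_beq_eq_true n2, Nat.eq_of_beq_eq_true n3]; norm_num) ?_
    all_goals
      simp only [part, Nat.eq_of_beq_eq_true n1, Nat.eq_of_beq_eq_true n2, Nat.eq_of_beq_eq_true n3] at e ⊢
      split_ifs at e ⊢ <;> omega

end CfsgLib.SuzRankThree
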