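import Cfsg.Agent.Lib.SuzRankThree.Near
import Cfsg.Agent.Lib.SuzRankThree.Far
import Cfsg.Agent.Lib.SchurMult.G2Four.Iso

/-!
A rank three group with point stabiliser G₂(4) and suborbits of sizes 416 and 1365 is the Suzuki group.
-/

set_option autoImplicit false
set_option maxRecDepth 100000
set_option linter.style.haveILetI false

namespace CfsgLib.SuzRankThree

open CfsgLib.RankThreeRecog MulAction
open CfsgLib.SuzMult (perm perm_injective)

/-- The point stabiliser of the model is the Chevalley group. -/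
theorem nonempty_K0_equiv {F : Type*} [Field F] [Fintype F] (hF : Fintype.card F = 4) :
    Nonempty (↥(Cfsg.Lie.chevG2.group F) ≃* K0) := by
  obtain ⟨g⟩ := CfsgLib.SchurMult.G2Four.nonempty_equiv hF
  obtain ⟨hfin, hc, -⟩ := Cfsg.Agent.S1679.card_P6
  haveI := hfin
  have hH : Function.Bijective Cfsg.Agent.S1679.toH :=
    (Nat.bijective_iff_surjective_and_card _).mpr
      ⟨Cfsg.Agent.S1679.toH_surjective, by rw [hc, Cfsg.Agent.S1679.card_H]⟩
  exact ⟨g.symm.trans ((MulEquiv.ofBijective _ hH).trans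
    ((Subgroup.equivMapOfInjective _ perm perm_injective).trans (MulEquiv.subgroupCongr H_map)))⟩

section Act

variable {Ω : Type*} {G : Subgroup (Equiv.Perm Ω)} {a : Ω} (e : stabilizer G a ≃* K0)

/-- The stabiliser of a point, seen in the model. -/
noncomputable def pulled (x : Ω) : Subgroup (Equiv.Perm (Fin 1782)) :=
  ((stabilizer (stabilizer G a) x).map e.toMonoidHom).map K0.subtype

theorem pulled_le (x : Ω) : pulled e x ≤ K0 := Subgroup.map_subtype_le _

theorem mem_pulled {x : Ω} (k : K0) : (k : Equiv.Perm (Fin 1782)) ∈ pulled e x ↔ e.symm k • x = x := by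
  rw [pulled]
  change K0.subtype k ∈ _ ↔ _
  rw [Subgroup.mem_map_iff_mem K0.subtype_injective, Subgroup.mem_map]
  constructor
  · rintro ⟨g, hg, rfl⟩
    rw [MulEquiv.coe_toMonoidHom, MulEquiv.symm_apply_apply]
    exact hg
  · intro h
    exact ⟨e.symm k, h, e.apply_symm_apply k⟩

theorem card_pulled [Finite Ω] {x : Ω} :
    (orbit (stabilizer G a) x).ncard * Nat.card (pulled e x) = 251596800 := by
  rw [pulled, Subgroup.card_map_of_injective K0.subtype_injective,
    Subgroup.card_map_of_injective e.injective, ← card_K0, ← Nat.card_congr e.toEquiv,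
    ← Nat.card_coe_set_eq, Nat.card_congr (orbitEquivQuotientStabilizer (stabilizer G a) x)]
  exact (Subgroup.card_eq_card_quotient_mul_card_subgroup _).symm

/-- Moving a point by the inverse of an element conjugates its stabiliser. -/
theorem align {x : Ω} {t : K0} {P : K0 → Prop} (h : ∀ k : K0, e.symm k • x = x ↔ P (t⁻¹ * k * t)) (k : K0) :
    e.symm k • e.symm t⁻¹ • x = e.symm t⁻¹ • x ↔ P k := by
  rw [map_inv, eq_inv_smul_iff, ← map_inv, smul_smul, smul_smul, ← map_mul, ← map_mul, h]
  simp [mul_assoc]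

theorem orbit_move (t : K0) (x : Ω) :
    orbit (stabilizer G a) (e.symm t • x) = orbit (stabilizer G a) x := orbit_smul _ _

variable {b : Ω} (hb : ∀ k : K0, e.symm k • b = b ↔ k • b₀ = b₀)

include hb in
theorem same_iff (k k' : K0) : e.symm k • b = e.symm k' • b ↔ k • b₀ = k' • b₀ := by
  rw [← inv_smul_eq_iff, smul_smul, ← map_inv, ← map_mul, hb, mul_smul, inv_smul_eq_iff]

/-- A subset of the first suborbit, seen in the model. -/
def pullSet (b : Ω) (T : Set Ω) : Set (Fin 1782) := {y | ∃ k : K0, k • b₀ = y ∧ e.symm k • b ∈ T}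

theorem pullSet_subset (T : Set Ω) : pullSet e b T ⊆ maskSet mskK1_0 := by
  rintro _ ⟨k, rfl, -⟩
  rw [← orbit416.1]
  exact ⟨k, rfl⟩

theorem pullSet_invariant {T : Set Ω} {g : Equiv.Perm (Fin 1782)} (hg : g ∈ K0)
    (hT : ∀ z ∈ T, e.symm ⟨g, hg⟩ • z ∈ T) : ∀ y ∈ pullSet e b T, g y ∈ pullSet e b T := by
  rintro _ ⟨k, rfl, hk⟩
  refine ⟨⟨g, hg⟩ * k, mul_smul _ _ _, ?_⟩
  rw [map_mul, mul_smul]
  exact hT _ hk

include hb in
theorem b₀_not_mem {T : Set Ω} (hT : b ∉ T) : b₀ ∉ pullSet e b T := by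
  rintro ⟨k, hk, hkT⟩
  rw [(hb k).2 hk] at hkT
  exact hT hkT

include hb in
theorem ncard_pullSet {T : Set Ω} (hT : T ⊆ orbit (stabilizer G a) b) : (pullSet e b T).ncard = T.ncard := by
  refine Set.ncard_congr (fun y hy => e.symm hy.choose • b) (fun y hy => hy.choose_spec.2) ?_ ?_
  · intro y y' hy hy' h
    rw [← hy.choose_spec.1, ← hy'.choose_spec.1]
    exact (same_iff e hb _ _).1 h
  · intro z hz
    obtain ⟨g, rfl⟩ := hT hz
    have hy : e g • b₀ ∈ pullSet e b T := ⟨e g, rfl, by rw [e.symm_apply_apply]; exact hz⟩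
    refine ⟨_, hy, ?_⟩
    have h := (same_iff e hb hy.choose (e g)).2 hy.choose_spec.1
    rw [e.symm_apply_apply] at h
    exact h

end Act

/-- The recognition, from an isomorphism with the model stabiliser. -/
theorem nonempty_iso_S {Ω : Type*} [Fintype Ω] [DecidableEq Ω] (hΩ : Fintype.card Ω = 1782)
    (G : Subgroup (Equiv.Perm Ω)) [IsPretransitive G Ω] (a : Ω) (e : stabilizer G a ≃* K0) (b c : Ω)
    (hb : (orbit (stabilizer G a) b).ncard = 416) (hc : (orbit (stabilizer G a) c).ncard = 1365) :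
    Nonempty (G ≃* S) := by
  -- align the first suborbit
  have hJ := card_pulled e (x := b)
  rw [hb] at hJ
  obtain ⟨p, ⟨t, rfl⟩, hp⟩ := index_416 (pulled_le e b) (by omega)
  have hb' : ∀ k : K0, e.symm k • (e.symm t⁻¹ • b) = e.symm t⁻¹ • b ↔ k • b₀ = b₀ := by
    refine align e (t := t) (P := fun k => k • b₀ = b₀) fun k => ?_
    rw [← mem_pulled, hp, Subgroup.mem_inf, mem_stabilizer_iff, mul_smul, mul_smul, inv_smul_eq_iff]
    exact ⟨fun h => h.2, fun h => ⟨k.2, h⟩⟩
  set b' := e.symm t⁻¹ • b with hbdef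
  have hb416 : (orbit (stabilizer G a) b').ncard = 416 := by rw [hbdef, orbit_move, hb]
  -- align the second suborbit
  have hQ := card_pulled e (x := c)
  rw [hc] at hQ
  have mkSub : ∀ c' : Ω, (orbit (stabilizer G a) c').ncard = 1365 → Sub G a b' c' 1782 416 1365 :=
    fun c' h => ⟨inferInstance, inferInstance, inferInstance, by rw [Nat.card_eq_fintype_card, hΩ], hb416, h,
      by norm_num, by norm_num, by norm_num, by norm_num, by norm_num⟩
  rcases index_1365 (pulled_le e c) (by omega) with ⟨q, ⟨u, rfl⟩, hq⟩ | ⟨γ, hγ, hq⟩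
  · have hc' : ∀ k : K0, e.symm k • (e.symm u⁻¹ • c) = e.symm u⁻¹ • c ↔ k • c₀ = c₀ := by
      refine align e (t := u) (P := fun k => k • c₀ = c₀) fun k => ?_
      rw [← mem_pulled, hq, Subgroup.mem_inf, mem_stabilizer_iff, mul_smul, mul_smul, inv_smul_eq_iff]
      exact ⟨fun h => h.2, fun h => ⟨k.2, h⟩⟩
    have hG := mkSub (e.symm u⁻¹ • c) (by rw [orbit_move, hc])
    exact nonempty_iso S a₀ b₀ c₀ G a b' _ sub hG (stabEquiv.trans e.symm) (fun s => hb' (stabEquiv s))
      (fun s => hc' (stabEquiv s)) forced card_aut_stab (by decide)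
  · exfalso
    have hc' : ∀ k : K0, e.symm k • (e.symm (⟨γ, hγ⟩ : K0)⁻¹ • c) = e.symm (⟨γ, hγ⟩ : K0)⁻¹ • c ↔
        (k : Equiv.Perm (Fin 1782)) ∈ lineStab := by
      refine align e (t := (⟨γ, hγ⟩ : K0)) (P := fun k => (k : Equiv.Perm (Fin 1782)) ∈ lineStab) fun k => ?_
      rw [← mem_pulled, hq]
      rfl
    set c' := e.symm (⟨γ, hγ⟩ : K0)⁻¹ • c with hcdef
    have hG := mkSub c' (by rw [hcdef, orbit_move, hc])
    -- the neighbours of b' in the first suborbit
    have hN : (nearNear G a b').ncard = 100 := by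
      rw [← ncard_pullSet e hb' (T := nearNear G a b') fun z hz => hz.1]
      refine (near_size (pullSet_subset e _) (b₀_not_mem e hb' fun h => edge_irrefl hG b' h.2)
        (fun g hg hgb => pullSet_invariant e hg fun z hz =>
          nearNear_invariant (G := G) (e.symm ⟨g, hg⟩).2 ((hb' ⟨g, hg⟩).2 hgb) hz) ?_ ?_).1
      · rw [ncard_pullSet e hb' fun z hz => hz.1]
        exact nearNear_lt hG
      · rw [ncard_pullSet e hb' fun z hz => hz.1]
        refine ⟨(farNear G a b' c').ncard, ?_⟩
        rw [← double_count hG]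
        have := ncard_nearNear_add hG
        congr 1
        omega
    -- the neighbours of c' in the first suborbit
    have h96 : (farNear G a b' c').ncard = 96 := by
      have h1 := ncard_nearNear_add hG
      have h2 := double_count hG
      rw [show {y | y ∈ orbit (stabilizer G a) c' ∧ Edge G a b' b' y}.ncard = 315 by omega] at h2
      omega
    refine line_parts (pullSet_subset e (b := b') (farNear G a b' c')) ?_
      (by rw [ncard_pullSet e hb' fun z hz => hz.1, h96])
    intro g hg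
    have hgK : g ∈ K0 := (mem_lineStab.1 hg).1
    exact pullSet_invariant e hgK fun z hz =>
      farNear_invariant (G := G) (e.symm ⟨g, hgK⟩).2 ((hc' ⟨g, hgK⟩).2 hg) hz

/-- The recognition of the sporadic Suzuki group by its rank three action. -/
theorem isoSuz {Ω : Type*} [Fintype Ω] [DecidableEq Ω] (hΩ : Fintype.card Ω = 1782)
    (G : Subgroup (Equiv.Perm Ω)) [IsPretransitive G Ω] (a : Ω) {F : Type*} [Field F] [Fintype F]
    (hF : Fintype.card F = 4) (e : stabilizer G a ≃* Cfsg.Lie.chevG2.group F) (b c : Ω)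
    (hb : (orbit (stabilizer G a) b).ncard = 416) (hc : (orbit (stabilizer G a) c).ncard = 1365) :
    Cfsg.Spor.IsoSuz G := by
  obtain ⟨g⟩ := nonempty_K0_equiv hF
  obtain ⟨f⟩ := nonempty_iso_S hΩ G a (e.trans g) b c hb hc
  exact ⟨f.trans (MonoidHom.ofInjective perm_injective).symm⟩

end CfsgLib.SuzRankThree
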