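import Cfsg.Agent.Lib.SuzRankThree.ClassChecks
import Cfsg.Agent.Lib.SuzRankThree.Sylow

/-!
The subgroups of index 416 of the point stabiliser are point stabilisers.
-/

set_option autoImplicit false
set_option maxRecDepth 100000
set_option linter.style.haveILetI false

namespace CfsgLib.SuzRankThree

open CfsgLib.RankThreeRecog MulAction

/-- A class element. -/
noncomputable def U (k : ℕ) : Equiv.Perm (Fin 1782) := wperm σ (uOf k)

/-- The class. -/
def Cl : Set (Equiv.Perm (Fin 1782)) := {g | ∃ k, k < 2080 ∧ (g = U k ∨ g = (U k)⁻¹)}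

theorem mem_chkList : ∀ (l : List (List ℕ × List ℕ)) (off : ℕ), chkList l off = true →
    ∀ i, (hi : i < l.length) → entryOK (off + i) l[i] = true
  | [], _, _, i, hi => absurd hi (by simp)
  | e :: l, off, h, i, hi => by
    change (entryOK off e && chkList l (off + 1)) = true at h
    rw [Bool.and_eq_true] at h
    rcases i with _ | i
    · exact h.1
    · rw [List.getElem_cons_succ, show off + (i + 1) = off + 1 + i by omega]
      exact mem_chkList l (off + 1) h.2 i _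

theorem chkList_append {l l' : List (List ℕ × List ℕ)} {off n : ℕ} (h : chkList l off = true)
    (h' : chkList l' n = true) (hn : n = off + l.length) : chkList (l ++ l') off = true := by
  induction l generalizing off with
  | nil => simp only [List.length_nil, Nat.add_zero] at hn; subst hn; exact h'
  | cons e l ih =>
    change (entryOK off e && chkList l (off + 1)) = true at h
    change (entryOK off e && chkList (l ++ l') (off + 1)) = true
    rw [Bool.and_eq_true] at h ⊢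
    exact ⟨h.1, ih h.2 (by rw [hn, List.length_cons]; omega)⟩

theorem cls_lengths : (cls0.length = 260 ∧ cls1.length = 260 ∧ cls2.length = 260 ∧ cls3.length = 260 ∧
    cls4.length = 260 ∧ cls5.length = 260 ∧ cls6.length = 260 ∧ cls7.length = 260) := by decide +kernel

theorem entry_ok {k : ℕ} (hk : k < 2080) : entryOK k (cls.getD k ([], [])) = true := by
  obtain ⟨h0, h1, h2, h3, h4, h5, h6, h7⟩ := cls_lengths
  have hall : chkList cls 0 = true := by
    unfold cls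
    refine chkList_append (chkList_append (chkList_append (chkList_append (chkList_append (chkList_append
      (chkList_append cls0_ok cls1_ok ?_) cls2_ok ?_) cls3_ok ?_) cls4_ok ?_) cls5_ok ?_) cls6_ok ?_) cls7_ok ?_
    all_goals simp only [List.length_append, h0, h1, h2, h3, h4, h5, h6, Nat.zero_add, Nat.reduceAdd]
  have hl : k < cls.length := by
    simp only [cls, List.length_append, h0, h1, h2, h3, h4, h5, h6, h7]
    omega
  have := mem_chkList cls 0 hall k hl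
  rwa [Nat.zero_add, ← List.getD_eq_getElem cls ([], []) hl] at this

theorem ev_lt (w : List ℕ) {u : ℕ} (hu : u < 1782) : ev img w u < 1782 := by
  induction w with
  | nil => exact hu
  | cons i w ih => exact img_lt i _ ih

theorem keyW_inj {w w' : List ℕ} (h : keyW w = keyW w') : sameOn img base w w' = true := by
  rw [sameOn, List.all_eq_true]
  have hb : ∀ b ∈ base, b < 1782 := by decide
  suffices key : ∀ l : List ℕ, (∀ b ∈ l, b < 1782) →
      (List.rec 0 (fun b _ ih => Nat.add (ev img w b) (Nat.mul 2048 ih)) l : ℕ) =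
        List.rec 0 (fun b _ ih => Nat.add (ev img w' b) (Nat.mul 2048 ih)) l →
      ∀ b ∈ l, ev img w b = ev img w' b from fun b hbb => by
    rw [key base hb h b hbb]; exact Nat.beq_refl _
  intro l
  induction l with
  | nil => intro _ _ b hb; exact absurd hb List.not_mem_nil
  | cons a l ih =>
    intro hl e
    change ev img w a + 2048 * _ = ev img w' a + 2048 * _ at e
    have h1 := ev_lt w (hl a (List.mem_cons_self ..))
    have h2 := ev_lt w' (hl a (List.mem_cons_self ..))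
    intro b hb
    rcases List.mem_cons.1 hb with rfl | hb
    · omega
    · exact ih (fun c hc => hl c (List.mem_cons_of_mem _ hc)) (by omega) b hb

theorem keyW_congr {w w' : List ℕ} (h : ∀ b, b < 1782 → ev img w b = ev img w' b) : keyW w = keyW w' := by
  have hb : ∀ b ∈ base, b < 1782 := by decide
  suffices key : ∀ l : List ℕ, (∀ b ∈ l, b < 1782) →
      (List.rec 0 (fun b _ ih => Nat.add (ev img w b) (Nat.mul 2048 ih)) l : ℕ) =
        List.rec 0 (fun b _ ih => Nat.add (ev img w' b) (Nat.mul 2048 ih)) l from key base hb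
  intro l
  induction l with
  | nil => intro _; rfl
  | cons a l ih =>
    intro hl
    change Nat.add (ev img w a) (Nat.mul 2048 _) = Nat.add (ev img w' a) (Nat.mul 2048 _)
    rw [h a (hl a (List.mem_cons_self ..)), ih fun c hc => hl c (List.mem_cons_of_mem _ hc)]

theorem eq_of_key {w w' : List ℕ} (hw : inK w = true) (hw' : inK w' = true) (h : keyW w = keyW w') :
    wperm σ w = wperm σ w' :=
  eq_of_sameOn hw hw' (keyW_inj h)

theorem wOf_small {k : ℕ} (hk : k < 2080) : ∀ i ∈ wOf k, i < 6 := by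
  have h := entry_ok hk
  simp only [entryOK, Bool.and_eq_true, List.all_eq_true, decide_eq_true_eq] at h
  exact h.1.1.1.1.1

theorem inK_iff {w : List ℕ} : inK w = true ↔ ∀ i ∈ w, i ≠ 6 := by
  rw [inK, List.all_eq_true]
  refine forall₂_congr fun i _ => ?_
  rcases hb : Nat.beq i 6 with _ | _
  · simpa using Nat.ne_of_beq_eq_false hb
  · simpa using Nat.eq_of_beq_eq_true hb

theorem inK_uOf {k : ℕ} (hk : k < 2080) : inK (uOf k) = true ∧ inK (uwi (wOf k)) = true := by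
  have h := wOf_small hk
  constructor <;> rw [inK_iff] <;> intro i hi <;>
    simp only [uOf, uw, uwi, List.mem_append, List.mem_cons, List.mem_reverse] at hi <;>
    rcases hi with hi | rfl | hi <;> first | omega | exact (h i hi).ne

theorem U_mem {k : ℕ} (hk : k < 2080) : U k ∈ K0 := wperm_mem_K0 (inK_uOf hk).1

theorem wperm_reverse_small {w : List ℕ} (h : ∀ i ∈ w, i < 6) : wperm σ w.reverse = (wperm σ w)⁻¹ := by
  rw [← wperm_rv, rv]
  congr 2
  conv_lhs => rw [← List.map_id w]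
  refine List.map_congr_left fun i hi => ?_
  have := h i hi
  interval_cases i <;> rfl

theorem U_eq_conj {k : ℕ} (hk : k < 2080) :
    U k = wperm σ (wOf k) * σ 9 * (wperm σ (wOf k))⁻¹ ∧ wperm σ (uwi (wOf k)) = (U k)⁻¹ := by
  have h := wperm_reverse_small (wOf_small hk)
  constructor
  · rw [U, uOf, uw, wperm_append, wperm, h, mul_assoc]
  · rw [U, uOf, uw, uwi, wperm_append, wperm_append, wperm, wperm, h,
      show σ 10 = (σ 9)⁻¹ from σ_flip 9, mul_inv_rev, mul_inv_rev, inv_inv, mul_assoc]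

theorem of_isKey {j : ℕ} {w : List ℕ} (hw : inK w = true) (h : isKey j (keyW w) = true) :
    j < 2080 ∧ (wperm σ w = U j ∨ wperm σ w = (U j)⁻¹) := by
  simp only [isKey, Bool.and_eq_true, decide_eq_true_eq, Bool.or_eq_true] at h
  obtain ⟨hj, h⟩ := h
  have he := entry_ok hj
  simp only [entryOK, Bool.and_eq_true] at he
  refine ⟨hj, ?_⟩
  rcases h with h | h
  · exact Or.inl (eq_of_key hw (inK_uOf hj).1
      ((Nat.eq_of_beq_eq_true h).trans (Nat.eq_of_beq_eq_true he.1.1.1.1.2).symm))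
  · refine Or.inr ((eq_of_key hw (inK_uOf hj).2 ?_).trans (U_eq_conj hj).2)
    exact (Nat.eq_of_beq_eq_true h).trans (Nat.eq_of_beq_eq_true he.1.1.1.2).symm

theorem inK_sandwich {k i j : ℕ} (hk : k < 2080) (hi : i ≠ 6) (hj : j ≠ 6) : inK (i :: (uOf k ++ [j])) = true := by
  rw [inK_iff]
  intro a ha
  simp only [List.mem_cons, List.mem_append, List.not_mem_nil, or_false] at ha
  rcases ha with rfl | ha | rfl
  · exact hi
  · exact inK_iff.1 (inK_uOf hk).1 a ha
  · exact hj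

theorem wperm_sandwich (i j : ℕ) (w : List ℕ) : wperm σ (i :: (w ++ [j])) = σ i * wperm σ w * σ j := by
  rw [wperm, wperm_append, wperm_singleton, mul_assoc]

theorem next_spec {k : ℕ} (hk : k < 2080) :
    nxt k < 2080 ∧ (σ 7 * U k * (σ 7)⁻¹ = U (nxt k) ∨ σ 7 * U k * (σ 7)⁻¹ = (U (nxt k))⁻¹) := by
  have h := entry_ok hk
  simp only [entryOK, Bool.and_eq_true] at h
  have := of_isKey (inK_sandwich hk (by norm_num) (by norm_num)) h.1.2
  rw [wperm_sandwich, show σ 8 = (σ 7)⁻¹ from σ_flip 7] at this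
  exact this

theorem toRep {k : ℕ} (hk : k < 2080) (P : Equiv.Perm (Fin 1782) → Prop) (hinv : ∀ g, P g⁻¹ ↔ P g)
    (hx : ∀ g, P (σ 7 * g * (σ 7)⁻¹) ↔ P g) : repOf k < 2080 ∧ (P (U k) ↔ P (U (repOf k))) := by
  have h := entry_ok hk
  simp only [entryOK, Bool.and_eq_true] at h
  have hr := Nat.eq_of_beq_eq_true h.2
  rw [← hr]
  clear h hr
  generalize expOf k = n
  induction n with
  | zero => exact ⟨hk, Iff.rfl⟩
  | succ n ih =>
    rw [List.range_succ, List.foldl_append]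
    simp only [List.foldl_cons, List.foldl_nil]
    obtain ⟨hn, hstep⟩ := next_spec ih.1
    refine ⟨hn, ih.2.trans ?_⟩
    rw [← hx]
    rcases hstep with e | e
    · rw [e]
    · rw [e, hinv]

theorem Cl_conj {g : Equiv.Perm (Fin 1782)} (hg : g ∈ K0) :
    ∀ u, g * u * g⁻¹ ∈ Cl ↔ u ∈ Cl := by
  induction hg using Subgroup.closure_induction with
  | mem g hg =>
    obtain ⟨i, hi, rfl⟩ := hg
    have hii : (σ i)⁻¹ = σ i := by
      rw [← σ_flip]
      interval_cases i <;> rfl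
    have key : ∀ u ∈ Cl, σ i * u * (σ i)⁻¹ ∈ Cl := by
      rintro u ⟨k, hk, hu⟩
      have h := entry_ok hk
      simp only [entryOK, Bool.and_eq_true, List.all_eq_true, List.mem_range] at h
      obtain ⟨hj, hjj⟩ := of_isKey (inK_sandwich hk (by omega) (by omega)) (h.1.1.2 i hi)
      rw [wperm_sandwich] at hjj
      refine ⟨_, hj, ?_⟩
      rcases hu with rfl | rfl
      · rwa [hii]
      · change σ i * (wperm σ (uOf k))⁻¹ * (σ i)⁻¹ = _ ∨ _
        rcases hjj with e | e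
        · right; rw [← e]; simp only [mul_inv_rev, hii, mul_assoc]; rfl
        · left; rw [← inv_inv (U ((cls.getD k ([], [])).2.getD i 0)), ← e]; simp only [mul_inv_rev, hii, mul_assoc]
    intro u
    refine ⟨fun h => ?_, key u⟩
    have h2 := key _ h
    rw [hii] at h2
    have hm : σ i * σ i = 1 := by
      nth_rewrite 1 [← hii]; exact inv_mul_cancel _
    simpa only [← mul_assoc, hm, one_mul, mul_assoc _ (σ i) (σ i), mul_one] using h2
  | one => intro u; simp
  | mul g h _ _ hg hh =>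
    intro u
    rw [show g * h * u * (g * h)⁻¹ = g * (h * u * h⁻¹) * g⁻¹ by group, hg, hh]
  | inv g _ hg =>
    intro u
    rw [← hg (g⁻¹ * u * g⁻¹⁻¹)]
    simp [mul_assoc]

/-- The fixed points of `x`. -/
noncomputable def fpt (i : ℕ) : Fin 1782 := Fin.ofNat 1782 (fxAt i)

theorem fpt_val {i : ℕ} (h : fxAt i < 1782) : (fpt i : ℕ) = fxAt i := Nat.mod_eq_of_lt h

theorem point_data {i : ℕ} (hi : i < 3) : pointOK i = true :=
  List.all_eq_true.1 points_ok i (List.mem_range.2 hi)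

theorem fxAt_lt (i : ℕ) : fxAt i < 1782 := by
  have h := point_data (Nat.mod_lt i (show 3 > 0 by norm_num))
  simp only [pointOK, Bool.and_eq_true, decide_eq_true_eq] at h
  have e : fxAt i = fxAt (i % 3) := by rw [fxAt, fxAt, Nat.mod_mod]
  rw [e]
  omega

theorem fixed_of {w : List ℕ} {pts : List ℕ} (h : fixesAll img pts w = true) {i : ℕ} (hi : fxAt i ∈ pts) :
    wperm σ w (fpt i) = fpt i :=
  fixesAll_spec describes h _ (by rw [fpt_val (fxAt_lt i)]; exact hi)

theorem x_fix (i : ℕ) : σ 7 (fpt i) = fpt i := by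
  have h := point_data (Nat.mod_lt i (show 3 > 0 by norm_num))
  simp only [pointOK, Bool.and_eq_true] at h
  have e : fxAt i = fxAt (i % 3) := by rw [fxAt, fxAt, Nat.mod_mod]
  rw [← wperm_singleton (σ := σ) 7, show fpt i = fpt (i % 3) by rw [fpt, fpt, e]]
  refine fixed_of ?_ (List.mem_singleton_self _)
  exact h.1.1.1.1.1.1.1.1.1.1.1.1.1.2

theorem wperm_subst_mem {J : Subgroup (Equiv.Perm (Fin 1782))} {ls : List (List ℕ)}
    (h : ∀ l ∈ ls, wperm σ l ∈ J) (w : List ℕ) : wperm σ (subst ls w) ∈ J := by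
  rw [subst, wperm_flatten]
  refine list_prod_mem fun g hg => ?_
  obtain ⟨l, hl, rfl⟩ := List.mem_map.1 hg
  obtain ⟨i, -, rfl⟩ := List.mem_map.1 hl
  by_cases hi : i < ls.length
  · rw [List.getD_eq_getElem ls [] hi]; exact h _ (List.getElem_mem _)
  · rw [List.getD_eq_default ls [] (by omega)]; exact one_mem _

theorem four_mem {J : Subgroup (Equiv.Perm (Fin 1782))} (hx : σ 7 ∈ J) {k : ℕ} (hk : k < 2080) (hu : U k ∈ J) :
    ∀ l ∈ four k, wperm σ l ∈ J := by
  intro l hl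
  simp only [four, List.mem_cons, List.not_mem_nil, or_false] at hl
  rcases hl with rfl | rfl | rfl | rfl
  · rw [wperm_singleton]; exact hx
  · rw [wperm_singleton, show σ 8 = (σ 7)⁻¹ from σ_flip 7]; exact inv_mem hx
  · exact hu
  · rw [(U_eq_conj hk).2]; exact inv_mem hu

theorem six_mem {J : Subgroup (Equiv.Perm (Fin 1782))} (hx : σ 7 ∈ J) {k k' : ℕ} (hk : k < 2080) (hu : U k ∈ J)
    (hk' : k' < 2080) (hu' : U k' ∈ J) : ∀ l ∈ four k ++ [uOf k', uwi (wOf k')], wperm σ l ∈ J := by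
  intro l hl
  rcases List.mem_append.1 hl with hl | hl
  · exact four_mem hx hk hu l hl
  · simp only [List.mem_cons, List.not_mem_nil, or_false] at hl
    rcases hl with rfl | rfl
    · exact hu'
    · rw [(U_eq_conj hk').2]; exact inv_mem hu'

theorem eq_U_of_key {w : List ℕ} (hw : inK w = true) {j : ℕ} (hj : j < 2080) (h : Nat.beq (keyW w) (kp j) = true) :
    wperm σ w = U j := by
  have he := entry_ok hj
  simp only [entryOK, Bool.and_eq_true] at he
  exact eq_of_key hw (inK_uOf hj).1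
    ((Nat.eq_of_beq_eq_true h).trans (Nat.eq_of_beq_eq_true he.1.1.1.1.2).symm)

theorem no_thirteen {J : Subgroup (Equiv.Perm (Fin 1782))} (hJ : Nat.card J = 604800) {w : List ℕ} {p : ℕ}
    (hp : p < 1782) (hw : wperm σ w ∈ J) (hc : cycleLen img w 13 p = true) : False := by
  have h1 := dvd_orderOf_of_cycleLen describes (by norm_num : (13 : ℕ).Prime) (u := ⟨p, hp⟩) hc
  have h2 : orderOf (wperm σ w) ∣ 604800 := by
    have := orderOf_dvd_natCard (⟨_, hw⟩ : J)
    rwa [Subgroup.orderOf_mk, hJ] at this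
  exact absurd (h1.trans h2) (by norm_num)

/-- Orbit bound inside a subgroup. -/
theorem card_le_orbit_mul {L : Subgroup (Equiv.Perm (Fin 1782))} (p : Fin 1782) :
    (orbit L p).ncard * Nat.card ↥(L ⊓ stabilizer (Equiv.Perm (Fin 1782)) p) = Nat.card L := by
  rw [← ncard_orbit_mul_stab L p]
  congr 1
  exact Nat.card_congr
    { toFun := fun s => ⟨⟨s.1, s.2.1⟩, s.2.2⟩
      invFun := fun s => ⟨s.1.1, s.1.2, s.2⟩
      left_inv := fun _ => rfl
      right_inv := fun _ => rfl }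

theorem card_stab416 {p : Fin 1782} (hp : p ∈ orbit K0 b₀) :
    Nat.card ↥(K0 ⊓ stabilizer (Equiv.Perm (Fin 1782)) p) = 604800 := by
  have h := card_le_orbit_mul (L := K0) p
  rw [orbit_eq_iff.2 hp, orbit416.1, orbit416.2, card_K0] at h
  omega

theorem fpt_orbit {i : ℕ} (hi : i < 3) : fpt i ∈ orbit K0 b₀ := by
  rw [orbit416.1]
  have h := point_data hi
  simp only [pointOK, Bool.and_eq_true] at h
  change Nat.testBit mskK1_0 (fpt i : ℕ) = true
  rw [fpt_val (fxAt_lt i)]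
  exact h.1.1.1.1.1.1.1.1.1.1.1.1.1.1.2

variable {J : Subgroup (Equiv.Perm (Fin 1782))}

theorem full_case (hJle : J ≤ K0) (hJ : Nat.card J = 604800) (hx : σ 7 ∈ J) {i : ℕ} (hi : i < 3)
    (hu : U (umAt i) ∈ J) : J = K0 ⊓ stabilizer (Equiv.Perm (Fin 1782)) (fpt i) := by
  have h := point_data hi
  simp only [pointOK, Bool.and_eq_true, decide_eq_true_eq, List.all_eq_true] at h
  obtain ⟨⟨⟨⟨⟨⟨⟨⟨⟨⟨⟨⟨⟨⟨⟨⟨⟨hum, -⟩, -⟩, -⟩, -⟩, hfix⟩, -⟩, hchain⟩, hprod⟩, hgens⟩, -⟩, -⟩, -⟩, -⟩, -⟩, -⟩, -⟩, -⟩ := h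
  set L := Subgroup.closure ({σ 7, U (umAt i)} : Set (Equiv.Perm (Fin 1782))) with hL
  have hLJ : L ≤ J := by
    rw [hL, Subgroup.closure_le]
    rintro g (rfl | rfl)
    · exact hx
    · exact hu
  have hLst : L ≤ K0 ⊓ stabilizer (Equiv.Perm (Fin 1782)) (fpt i) := by
    refine le_inf (hLJ.trans hJle) ?_
    rw [hL, Subgroup.closure_le]
    rintro g (rfl | rfl)
    · exact x_fix i
    · exact fixed_of hfix (List.mem_singleton_self _)
  have hx' : σ 7 ∈ L := Subgroup.subset_closure (Or.inl rfl)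
  have hu' : U (umAt i) ∈ L := Subgroup.subset_closure (Or.inr rfl)
  have hcard : 604800 ≤ Nat.card L := by
    refine hprod.trans (chain_spec describes img_lt _ _ _ L hchain fun l hl w hw _ => ?_)
    simp only [chainW, List.mem_map] at hl
    obtain ⟨l', -, rfl⟩ := hl
    obtain ⟨w', -, rfl⟩ := List.mem_map.1 hw
    exact wperm_subst_mem (four_mem hx' hum hu') _
  have e1 : L = J := Subgroup.eq_of_le_of_card_ge hLJ (by rw [hJ]; exact hcard)
  have e2 : L = K0 ⊓ stabilizer (Equiv.Perm (Fin 1782)) (fpt i) :=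
    Subgroup.eq_of_le_of_card_ge hLst (by rw [card_stab416 (fpt_orbit hi)]; exact hcard)
  rw [← e1, e2]

theorem card_pair {i : ℕ} (hi : i < 3) :
    Nat.card ↥(K0 ⊓ stabilizer (Equiv.Perm (Fin 1782)) (fpt i) ⊓ stabilizer (Equiv.Perm (Fin 1782)) (fpt (i + 1))) ≤ 6048 := by
  have h := point_data hi
  simp only [pointOK, Bool.and_eq_true, decide_eq_true_eq, List.all_eq_true] at h
  obtain ⟨⟨⟨⟨⟨⟨⟨⟨⟨⟨⟨⟨⟨⟨⟨⟨⟨hum, -⟩, -⟩, -⟩, -⟩, hfix⟩, -⟩, -⟩, -⟩, hgens⟩, hfirst⟩, -⟩, -⟩, -⟩, -⟩, -⟩, -⟩, -⟩ := h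
  set L := K0 ⊓ stabilizer (Equiv.Perm (Fin 1782)) (fpt i)
  have h100 : 100 ≤ (orbit L (fpt (i + 1))).ncard := by
    rw [firstOK] at hfirst
    rcases hc : chainW i with _ | ⟨l, ls⟩
    · rw [hc] at hfirst; exact absurd hfirst (by simp)
    rw [hc] at hfirst
    simp only [Bool.and_eq_true] at hfirst
    rcases hg : grow img l.2.1 l.2.2 (Nat.shiftLeft 1 l.1) with _ | m
    · rw [hg] at hfirst; exact absurd hfirst.2 (by simp)
    rw [hg] at hfirst
    simp only [decide_eq_true_eq] at hfirst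
    refine hfirst.2.trans (maskCount_le (grow_spec describes (L := L) (fun w hw => ?_) (orbit L (fpt (i + 1)))
      (fun g hgL z hz => ?_) img_lt _ _ _ hg fun j hj => ?_))
    · have hl : l ∈ chainW i := by rw [hc]; exact List.mem_cons_self ..
      refine ⟨wperm_mem_K0 (hgens l hl w hw), ?_⟩
      simp only [chainW, List.mem_map] at hl
      obtain ⟨l', -, rfl⟩ := hl
      obtain ⟨w', -, rfl⟩ := List.mem_map.1 hw
      refine wperm_subst_mem (four_mem ?_ hum ?_) _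
      · exact x_fix i
      · exact fixed_of hfix (List.mem_singleton_self _)
    · obtain ⟨t, rfl⟩ := hz
      exact ⟨⟨g, hgL⟩ * t, rfl⟩
    · change Nat.testBit (1 <<< l.1) j = true at hj
      rw [Nat.one_shiftLeft, Nat.testBit_two_pow, decide_eq_true_eq] at hj
      exact ⟨_, mem_orbit_self _, by rw [fpt_val (fxAt_lt _), ← Nat.eq_of_beq_eq_true hfirst.1, hj]⟩
  have h1 := card_le_orbit_mul (L := L) (fpt (i + 1))
  rw [card_stab416 (fpt_orbit hi)] at h1
  nlinarith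

theorem hm_case (hJle : J ≤ K0) (hJ : Nat.card J = 604800) {i : ℕ} (hi : i < 3) (hx : σ 7 ∈ J)
    (hu : U (hmAt i) ∈ J)
    (hall : ∀ g ∈ J, g ∈ Cl → g (fpt i) = fpt i ∧ g (fpt (i + 1)) = fpt (i + 1)) : False := by
  have h := point_data hi
  simp only [pointOK, Bool.and_eq_true, decide_eq_true_eq, List.all_eq_true] at h
  obtain ⟨⟨⟨⟨⟨⟨⟨⟨⟨⟨⟨⟨⟨⟨⟨⟨⟨-, hhm⟩, -⟩, -⟩, -⟩, -⟩, -⟩, -⟩, -⟩, -⟩, -⟩, -⟩, -⟩, -⟩, -⟩, -⟩, hcom⟩, hlen⟩ := h
  set Φ : Set (Fin 1782) := {p | p ∈ maskSet mskK1_0 ∧ ∀ g ∈ J, g ∈ Cl → g p = p}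
  have hU : U (hmAt i) ∈ Cl := ⟨_, hhm, Or.inl rfl⟩
  have hxU : σ 7 * U (hmAt i) * (σ 7)⁻¹ ∈ Cl := (Cl_conj (hJle hx) _).2 hU
  have hΦ : Φ.ncard ≤ 8 := by
    refine le_trans ?_ hlen
    rw [← Set.ncard_image_of_injective Φ Fin.val_injective]
    refine le_trans (Set.ncard_le_ncard (t := (↑(common.getD i []).toFinset : Set ℕ)) ?_) ?_
    · rintro _ ⟨p, ⟨hp, hfix⟩, rfl⟩
      have hc := orbit_checks
      simp only [Bool.and_eq_true, List.all_eq_true, decide_eq_true_eq, List.mem_range] at hc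
      obtain ⟨⟨⟨⟨⟨⟨⟨⟨⟨⟨⟨⟨⟨-, -⟩, hm0⟩, -⟩, -⟩, -⟩, -⟩, -⟩, -⟩, -⟩, -⟩, -⟩, -⟩, -⟩ := hc
      have hp' : (p : ℕ) ∈ o416 := by
        rw [← testBit_maskOf, Nat.eq_of_beq_eq_true hm0]; exact hp
      have h2 := hcom p hp'
      rw [List.coe_toFinset, Set.mem_ofPred_eq]
      simp only [Bool.or_eq_true, Bool.not_eq_true', Bool.and_eq_false_iff, List.any_eq_true] at h2
      rcases h2 with (h2 | h2) | ⟨q, hq, e⟩
      · exfalso
        rw [← ev_eq describes, show wperm σ (uOf (hmAt i)) p = p from hfix _ hu hU, Nat.beq_refl] at h2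
        exact Bool.noConfusion h2
      · exfalso
        rw [← ev_eq describes, wperm_sandwich, show σ 8 = (σ 7)⁻¹ from σ_flip 7] at h2
        change Nat.beq (((σ 7 * U (hmAt i) * (σ 7)⁻¹) p : Fin 1782) : ℕ) (p : ℕ) = false at h2
        rw [hfix _ (mul_mem (mul_mem hx hu) (inv_mem hx)) hxU, Nat.beq_refl] at h2
        exact Bool.noConfusion h2
      · rwa [← Nat.eq_of_beq_eq_true e]
    · rw [Set.ncard_coe_finset]
      exact List.toFinset_card_le _
  have hinv : ∀ g ∈ J, ∀ p ∈ Φ, g p ∈ Φ := by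
    rintro g hg p ⟨hp, hfix⟩
    refine ⟨?_, fun u hu huC => ?_⟩
    · rw [← orbit416.1] at hp ⊢
      obtain ⟨t, rfl⟩ := hp
      exact ⟨⟨g, hJle hg⟩ * t, rfl⟩
    · have h1 := hfix (g⁻¹ * u * g) (mul_mem (mul_mem (inv_mem hg) hu) hg) (by
        have := (Cl_conj (inv_mem (hJle hg)) u).2 huC
        rwa [inv_inv] at this)
      rw [Equiv.Perm.mul_apply, Equiv.Perm.mul_apply, Equiv.Perm.inv_def, Equiv.symm_apply_eq] at h1
      exact h1
  have hbound : ∀ (L : Subgroup (Equiv.Perm (Fin 1782))) (p : Fin 1782), L ≤ J → p ∈ Φ →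
      Nat.card L ≤ 8 * Nat.card ↥(L ⊓ stabilizer (Equiv.Perm (Fin 1782)) p) := by
    intro L p hLJ hp
    rw [← card_le_orbit_mul (L := L) p]
    refine Nat.mul_le_mul_right _ ((Set.ncard_le_ncard ?_).trans hΦ)
    rintro _ ⟨g, rfl⟩
    exact hinv _ (hLJ g.2) p hp
  have hpi : fpt i ∈ Φ := ⟨by rw [← orbit416.1]; exact fpt_orbit hi, fun g hg hgC => (hall g hg hgC).1⟩
  have hpj : fpt (i + 1) ∈ Φ := by
    refine ⟨?_, fun g hg hgC => (hall g hg hgC).2⟩
    rw [← orbit416.1]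
    rcases Nat.lt_or_ge (i + 1) 3 with h3 | h3
    · exact fpt_orbit h3
    · have : fpt (i + 1) = fpt 0 := by
        rw [fpt, fpt, fxAt, fxAt, show i + 1 = 3 by omega]
      rw [this]
      exact fpt_orbit (by norm_num)
  have h1 := hbound J _ le_rfl hpi
  have h2 := hbound (J ⊓ stabilizer (Equiv.Perm (Fin 1782)) (fpt i)) _ inf_le_left hpj
  have h3 : Nat.card ↥(J ⊓ stabilizer (Equiv.Perm (Fin 1782)) (fpt i) ⊓ stabilizer (Equiv.Perm (Fin 1782)) (fpt (i + 1))) ≤
      6048 := le_trans (Subgroup.card_le_of_le (inf_le_inf_right _ (inf_le_inf_right _ hJle))) (card_pair hi)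
  omega

theorem c_case (hJle : J ≤ K0) (hJ : Nat.card J = 604800) (hc : σ 9 ∈ J)
    (hall : ∀ g ∈ J, g ∈ Cl → g = σ 9 ∨ g = (σ 9)⁻¹) : False := by
  classical
  let C : Subgroup (Equiv.Perm (Fin 1782)) := Subgroup.centralizer {σ 9}
  have hkc : kc < 2080 ∧ σ 9 = U kc := by
    have h := elems_ok
    simp only [Bool.and_eq_true, decide_eq_true_eq] at h
    obtain ⟨⟨⟨⟨⟨⟨hk, h9⟩, -⟩, -⟩, -⟩, -⟩, -⟩ := h
    exact ⟨hk, by rw [← eq_U_of_key (w := [9]) (by decide) hk h9, wperm_singleton]⟩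
  have hcCl : σ 9 ∈ Cl := ⟨kc, hkc.1, Or.inl hkc.2⟩
  have conj_eq : ∀ g g' : Equiv.Perm (Fin 1782), g⁻¹ * g' ∈ C → g * σ 9 * g⁻¹ = g' * σ 9 * g'⁻¹ := by
    intro g g' h
    rw [Subgroup.mem_centralizer_singleton_iff] at h
    calc g * σ 9 * g⁻¹ = g * ((g⁻¹ * g') * σ 9 * (g⁻¹ * g')⁻¹) * g⁻¹ := by rw [h]; group
      _ = g' * σ 9 * g'⁻¹ := by group
  -- many conjugates in the whole stabiliser
  have hbig : 2080 ≤ ((C.subgroupOf K0)).index := by
    let f : Fin 2080 → K0 ⧸ C.subgroupOf K0 := fun k =>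
      QuotientGroup.mk (⟨wperm σ (wOf k), wperm_mem_K0 (inK_iff.2 fun i hi => (wOf_small k.2 i hi).ne)⟩ : K0)
    have hf : Function.Injective f := by
      intro k l e
      have h := conj_eq _ _ (Subgroup.mem_subgroupOf.1 (QuotientGroup.eq.1 e))
      rw [← (U_eq_conj k.2).1, ← (U_eq_conj l.2).1] at h
      have hk := entry_ok k.2
      have hl := entry_ok l.2
      simp only [entryOK, Bool.and_eq_true] at hk hl
      have hkey : kp (k : ℕ) = kp (l : ℕ) := by
        rw [← Nat.eq_of_beq_eq_true hk.1.1.1.1.2, ← Nat.eq_of_beq_eq_true hl.1.1.1.1.2]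
        have hev : ∀ b : ℕ, b < 1782 → ev img (uOf k) b = ev img (uOf l) b := fun b hb => by
          rw [← ev_eq describes _ ⟨b, hb⟩, ← ev_eq describes _ ⟨b, hb⟩]
          exact congrArg (fun g : Equiv.Perm (Fin 1782) => ((g ⟨b, hb⟩ : Fin 1782) : ℕ)) h
        exact keyW_congr hev
      have hinc := keys_increasing
      simp only [List.all_eq_true, List.mem_range, decide_eq_true_eq] at hinc
      have hmono : ∀ a b, a < b → b < 2080 → kp a < kp b := by
        intro a b hab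
        induction hab with
        | refl => intro hb; exact hinc a (by omega)
        | @step b _ ih => intro hb; exact (ih (by omega)).trans (hinc b (by omega))
      rcases Nat.lt_trichotomy (k : ℕ) l with h' | h' | h'
      · exact absurd hkey (hmono _ _ h' l.2).ne
      · exact Fin.ext h'
      · exact absurd hkey (hmono _ _ h' k.2).ne'
    have := Nat.card_le_card_of_injective f hf
    rwa [Nat.card_fin] at this
  -- few in J
  have hsmall : (C.subgroupOf J).index ≤ 2 := by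
    let f : J ⧸ C.subgroupOf J → ({σ 9, (σ 9)⁻¹} : Finset (Equiv.Perm (Fin 1782))) :=
      Quotient.lift (fun g : J => (⟨(g : Equiv.Perm (Fin 1782)) * σ 9 * (g : Equiv.Perm (Fin 1782))⁻¹, by
        have := hall _ (mul_mem (mul_mem g.2 hc) (inv_mem g.2)) ((Cl_conj (hJle g.2) _).2 hcCl)
        simpa using this⟩ : ({σ 9, (σ 9)⁻¹} : Finset (Equiv.Perm (Fin 1782)))))
        fun g g' h => Subtype.ext (conj_eq _ _ (Subgroup.mem_subgroupOf.1 (QuotientGroup.leftRel_apply.1 h)))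
    have hf : Function.Injective f := by
      intro a b
      induction a using Quotient.inductionOn with
      | _ g =>
        induction b using Quotient.inductionOn with
        | _ g' =>
          intro e
          apply Quotient.sound
          refine QuotientGroup.leftRel_apply.2 (Subgroup.mem_subgroupOf.2 ?_)
          rw [Subgroup.mem_centralizer_singleton_iff]
          have e' : (g : Equiv.Perm (Fin 1782)) * σ 9 * (g : Equiv.Perm (Fin 1782))⁻¹ = g' * σ 9 * (g' : Equiv.Perm (Fin 1782))⁻¹ :=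
            congrArg Subtype.val e
          calc ((g⁻¹ * g' : J) : Equiv.Perm (Fin 1782)) * σ 9
              = (g : Equiv.Perm (Fin 1782))⁻¹ * (g' * σ 9 * (g' : Equiv.Perm (Fin 1782))⁻¹) * g' := by
                push_cast; group
            _ = σ 9 * ((g⁻¹ * g' : J) : Equiv.Perm (Fin 1782)) := by rw [← e']; push_cast; group
    refine le_trans (Nat.card_le_card_of_injective f hf) ?_
    rw [Nat.card_eq_fintype_card, Fintype.card_coe]
    exact Finset.card_le_two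
  have h1 := Subgroup.card_mul_index (C.subgroupOf K0)
  have h2 := Subgroup.card_mul_index (C.subgroupOf J)
  rw [card_K0] at h1
  rw [hJ] at h2
  have h3 : Nat.card (C.subgroupOf J) ≤ Nat.card (C.subgroupOf K0) :=
    Nat.card_le_card_of_injective
      (fun s => (⟨⟨s.1.1, hJle s.1.2⟩, Subgroup.mem_subgroupOf.2 (Subgroup.mem_subgroupOf.1 s.2 :)⟩ : C.subgroupOf K0))
      fun s t e => Subtype.ext (Subtype.ext (congrArg (fun q : C.subgroupOf K0 => (q.1 : Equiv.Perm (Fin 1782))) e))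
  nlinarith

theorem near_aux (hJle : J ≤ K0) (hJ : Nat.card J = 604800) (hx : σ 7 ∈ J) (hne : ∃ g ∈ J, g ∈ Cl) :
    ∃ i, i < 3 ∧ J = K0 ⊓ stabilizer (Equiv.Perm (Fin 1782)) (fpt i) := by
  -- every class element of J reduces to a case
  have hPx : ∀ g, σ 7 * g * (σ 7)⁻¹ ∈ J ↔ g ∈ J := fun g => by
    rw [mul_mem_cancel_right (inv_mem hx), mul_mem_cancel_left hx]
  have hcase : ∀ k, k < 2080 → U k ∈ J → ∃ t ∈ cases, t.1 = repOf k ∧ U t.1 ∈ J ∧ caseOK t = true := by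
    intro k hk hu
    have h := List.all_eq_true.1 cover_ok k (List.mem_range.2 hk)
    rw [List.any_eq_true] at h
    obtain ⟨t, ht, e⟩ := h
    have e' := Nat.eq_of_beq_eq_true e
    refine ⟨t, ht, e', ?_, List.all_eq_true.1 cases_ok t ht⟩
    rw [e']
    exact ((toRep hk (· ∈ J) (fun g => inv_mem_iff) hPx).2).1 hu
  have hCl : ∀ g ∈ J, g ∈ Cl → ∃ k, k < 2080 ∧ U k ∈ J ∧ (g = U k ∨ g = (U k)⁻¹) := by
    rintro g hg ⟨k, hk, he⟩
    refine ⟨k, hk, ?_, he⟩
    rcases he with rfl | rfl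
    · exact hg
    · simpa using hg
  by_cases hfull : ∃ i, i < 3 ∧ U (umAt i) ∈ J
  · obtain ⟨i, hi, hu⟩ := hfull
    exact ⟨i, hi, full_case hJle hJ hx hi hu⟩
  exfalso
  -- cases of the remaining kinds
  have hkind : ∀ k, k < 2080 → U k ∈ J →
      (repOf k = kc) ∨ ∃ i, i < 3 ∧ U (hmAt i) ∈ J ∧
        (U (repOf k) (fpt i) = fpt i ∧ U (repOf k) (fpt (i + 1)) = fpt (i + 1)) := by
    intro k hk hu
    obtain ⟨t, -, e, htJ, hok⟩ := hcase k hk hu
    obtain ⟨tk, kind, i, p, w⟩ := t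
    simp only at e htJ
    subst e
    simp only [caseOK, Bool.and_eq_true, decide_eq_true_eq] at hok
    obtain ⟨⟨hk', hinw⟩, hrest⟩ := hok
    have hw : wperm σ (subst (four (repOf k)) w) ∈ J := wperm_subst_mem (four_mem hx hk' htJ) w
    match kind, hrest with
    | 0, hrest =>
      simp only [Bool.and_eq_true, decide_eq_true_eq] at hrest
      exact (no_thirteen hJ hrest.1 hw hrest.2).elim
    | 1, hrest =>
      simp only [Bool.and_eq_true, decide_eq_true_eq] at hrest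
      obtain ⟨⟨hi, -⟩, hkey⟩ := hrest
      have hd := point_data hi
      simp only [pointOK, Bool.and_eq_true, decide_eq_true_eq] at hd
      obtain ⟨⟨⟨⟨⟨⟨⟨⟨⟨⟨⟨⟨⟨⟨⟨⟨⟨hum, -⟩, -⟩, -⟩, -⟩, -⟩, -⟩, -⟩, -⟩, -⟩, -⟩, -⟩, -⟩, -⟩, -⟩, -⟩, -⟩, -⟩ := hd
      exact (hfull ⟨i, hi, eq_U_of_key hinw hum hkey ▸ hw⟩).elim
    | 2, hrest =>
      simp only [Bool.and_eq_true, decide_eq_true_eq] at hrest
      obtain ⟨⟨hi, hfix⟩, hkey⟩ := hrest
      have hd := point_data hi
      simp only [pointOK, Bool.and_eq_true, decide_eq_true_eq] at hd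
      obtain ⟨⟨⟨⟨⟨⟨⟨⟨⟨⟨⟨⟨⟨⟨⟨⟨⟨-, hhm⟩, -⟩, -⟩, -⟩, -⟩, -⟩, -⟩, -⟩, -⟩, -⟩, -⟩, -⟩, -⟩, -⟩, -⟩, -⟩, -⟩ := hd
      exact Or.inr ⟨i, hi, eq_U_of_key hinw hhm hkey ▸ hw, fixed_of hfix (by simp), fixed_of hfix (by simp)⟩
    | n + 3, hrest => exact Or.inl (Nat.eq_of_beq_eq_true hrest)
  have hkc : kc < 2080 ∧ σ 9 = U kc ∧ σ 7 * σ 9 * (σ 7)⁻¹ = σ 9 := by
    have h := elems_ok
    simp only [Bool.and_eq_true, decide_eq_true_eq] at h
    obtain ⟨⟨⟨⟨⟨⟨hk, h9⟩, h79⟩, -⟩, -⟩, -⟩, -⟩ := h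
    refine ⟨hk, by rw [← eq_U_of_key (w := [9]) (by decide) hk h9, wperm_singleton], ?_⟩
    have := eq_of_key (w := [7, 9]) (w' := [9, 7]) (by decide) (by decide) (Nat.eq_of_beq_eq_true h79)
    simp only [wperm, mul_one] at this
    rw [this, mul_inv_cancel_right]
  -- the masters present
  have hsame : ∀ i j, i < 3 → j < 3 → U (hmAt i) ∈ J → U (hmAt j) ∈ J → i = j := by
    have hstep : ∀ i, i < 3 → U (hmAt i) ∈ J → U (hmAt (i + 1)) ∈ J → False := by
      intro i hi h1 h2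
      have hd := point_data hi
      have hd' := point_data (Nat.mod_lt (i + 1) (show 3 > 0 by norm_num))
      simp only [pointOK, Bool.and_eq_true, decide_eq_true_eq] at hd hd'
      obtain ⟨⟨⟨⟨⟨⟨⟨⟨⟨⟨⟨⟨⟨⟨⟨⟨⟨-, hhm⟩, -⟩, -⟩, -⟩, -⟩, -⟩, -⟩, -⟩, -⟩, -⟩, hin⟩, hkey⟩, -⟩, -⟩, -⟩, -⟩, -⟩ := hd
      obtain ⟨⟨⟨⟨⟨⟨⟨⟨⟨⟨⟨⟨⟨⟨⟨⟨⟨hum', hhm'⟩, -⟩, -⟩, -⟩, -⟩, -⟩, -⟩, -⟩, -⟩, -⟩, -⟩, -⟩, -⟩, -⟩, -⟩, -⟩, -⟩ := hd'
      have em : umAt ((i + 1) % 3) = umAt (i + 1) := by rw [umAt, umAt, Nat.mod_mod]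
      have eh : hmAt ((i + 1) % 3) = hmAt (i + 1) := by rw [hmAt, hmAt, Nat.mod_mod]
      rw [em] at hum'
      rw [eh] at hhm'
      refine hfull ⟨(i + 1) % 3, Nat.mod_lt _ (by norm_num), ?_⟩
      rw [em, ← eq_U_of_key hin hum' hkey]
      exact wperm_subst_mem (six_mem hx hhm h1 hhm' h2) _
    intro i j hi hj h1 h2
    have wrap : U (hmAt 0) ∈ J → U (hmAt 3) ∈ J := fun h => by
      rwa [show hmAt 3 = hmAt 0 from rfl]
    by_contra hij
    interval_cases i <;> interval_cases j <;>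
      first
      | exact hij rfl
      | exact hstep 0 (by norm_num) h1 h2
      | exact hstep 0 (by norm_num) h2 h1
      | exact hstep 1 (by norm_num) h1 h2
      | exact hstep 1 (by norm_num) h2 h1
      | exact hstep 2 (by norm_num) h1 (wrap h2)
      | exact hstep 2 (by norm_num) h2 (wrap h1)
  by_cases hH : ∃ i, i < 3 ∧ U (hmAt i) ∈ J
  · obtain ⟨i, hi, hu⟩ := hH
    refine hm_case hJle hJ hi hx hu fun g hg hgC => ?_
    obtain ⟨k, hk, huk, he⟩ := hCl g hg hgC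
    rcases hkind k hk huk with hr | ⟨j, hj, hju, hfix⟩
    · exfalso
      have hd := point_data hi
      simp only [pointOK, Bool.and_eq_true, decide_eq_true_eq] at hd
      obtain ⟨⟨⟨⟨⟨⟨⟨⟨⟨⟨⟨⟨⟨⟨⟨⟨⟨-, hhm⟩, -⟩, -⟩, -⟩, -⟩, -⟩, -⟩, -⟩, -⟩, -⟩, -⟩, -⟩, -⟩, hpt⟩, hcyc⟩, -⟩, -⟩ := hd
      have hcJ : U kc ∈ J := by
        rw [← hr]; exact ((toRep hk (· ∈ J) (fun g => inv_mem_iff) hPx).2).1 huk
      exact no_thirteen hJ hpt (wperm_subst_mem (six_mem hx hhm hu hkc.1 hcJ) _) hcyc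
    · have hji := hsame j i hj hi hju hu
      subst hji
      have hP : ∀ q, σ 7 q = q → (∀ g : Equiv.Perm (Fin 1782), g⁻¹ q = q ↔ g q = q) ∧
          ∀ g : Equiv.Perm (Fin 1782), (σ 7 * g * (σ 7)⁻¹) q = q ↔ g q = q := by
        intro q hq
        refine ⟨fun g => by rw [Equiv.Perm.inv_def, Equiv.symm_apply_eq]; exact eq_comm, fun g => ?_⟩
        have hq' : (σ 7)⁻¹ q = q := by rw [Equiv.Perm.inv_def, Equiv.symm_apply_eq, hq]
        rw [Equiv.Perm.mul_apply, Equiv.Perm.mul_apply, hq']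
        constructor
        · intro e; exact (σ 7).injective (e.trans hq.symm)
        · intro e; rw [e, hq]
      have f1 := ((toRep hk (fun g => g (fpt j) = fpt j) (hP _ (x_fix j)).1 (hP _ (x_fix j)).2).2).2 hfix.1
      have f2 := ((toRep hk (fun g => g (fpt (j + 1)) = fpt (j + 1)) (hP _ (x_fix _)).1 (hP _ (x_fix _)).2).2).2 hfix.2
      rcases he with rfl | rfl
      · exact ⟨f1, f2⟩
      · exact ⟨((hP _ (x_fix j)).1 _).2 f1, ((hP _ (x_fix _)).1 _).2 f2⟩
  · have hall : ∀ g ∈ J, g ∈ Cl → g = σ 9 ∨ g = (σ 9)⁻¹ := by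
      intro g hg hgC
      obtain ⟨k, hk, huk, he⟩ := hCl g hg hgC
      rcases hkind k hk huk with hr | ⟨j, hj, hju, -⟩
      · have hP1 : ∀ g : Equiv.Perm (Fin 1782), (g⁻¹ = σ 9 ∨ g⁻¹ = (σ 9)⁻¹) ↔ (g = σ 9 ∨ g = (σ 9)⁻¹) := fun g => by
          rw [inv_inj, inv_eq_iff_eq_inv, or_comm]
        have hP2 : ∀ g : Equiv.Perm (Fin 1782),
            (σ 7 * g * (σ 7)⁻¹ = σ 9 ∨ σ 7 * g * (σ 7)⁻¹ = (σ 9)⁻¹) ↔ (g = σ 9 ∨ g = (σ 9)⁻¹) := fun g => by
          have e9 : σ 7 * (σ 9)⁻¹ * (σ 7)⁻¹ = (σ 9)⁻¹ := by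
            conv_rhs => rw [← hkc.2.2]
            group
          conv_lhs => rw [← hkc.2.2, show (σ 7 * σ 9 * (σ 7)⁻¹)⁻¹ = σ 7 * (σ 9)⁻¹ * (σ 7)⁻¹ by group]
          simp [mul_left_inj, mul_right_inj]
        have h1 := ((toRep hk (fun g => g = σ 9 ∨ g = (σ 9)⁻¹) hP1 hP2).2).2 (by rw [hr, hkc.2.1]; exact Or.inl rfl)
        rcases he with rfl | rfl
        · exact h1
        · exact (hP1 _).2 h1
      · exact absurd ⟨j, hj, hju⟩ hH
    obtain ⟨g, hg, hgC⟩ := hne
    refine c_case hJle hJ ?_ hall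
    rcases hall g hg hgC with rfl | rfl
    · exact hg
    · simpa using hg

/-- The subgroups of index 416 of the point stabiliser fix a point of the first suborbit. -/
theorem index_416 (hJle : J ≤ K0) (hJ : Nat.card J = 604800) :
    ∃ p ∈ orbit K0 b₀, J = K0 ⊓ stabilizer (Equiv.Perm (Fin 1782)) p := by
  haveI : Fact (Nat.Prime 7) := ⟨by norm_num⟩
  haveI : Fact (Nat.Prime 3) := ⟨by norm_num⟩
  have h := elems_ok
  simp only [Bool.and_eq_true, decide_eq_true_eq, Bool.not_eq_true'] at h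
  obtain ⟨⟨⟨⟨⟨⟨hk, h9⟩, -⟩, h7⟩, -⟩, h3⟩, -⟩ := h
  have pgroup : ∀ (p : ℕ) [Fact p.Prime] (y : K0), y ^ p = 1 → IsPGroup p (Subgroup.zpowers y) := by
    intro p _ y hy
    rintro ⟨z, hz⟩
    obtain ⟨n, rfl⟩ := Subgroup.mem_zpowers_iff.1 hz
    refine ⟨1, Subtype.ext ?_⟩
    simp only [pow_one, SubmonoidClass.mk_pow, OneMemClass.coe_one]
    rw [← zpow_natCast, ← zpow_mul, mul_comm, zpow_mul, zpow_natCast, hy, one_zpow]
  let x' : K0 := ⟨σ 7, σ_mem_K0 (by norm_num)⟩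
  let c' : K0 := ⟨σ 9, σ_mem_K0 (by norm_num)⟩
  have hx7 : x' ^ 7 = 1 := by
    refine Subtype.ext ?_
    have := eq_of_key (w := [7, 7, 7, 7, 7, 7, 7]) (w' := []) (by decide) (by decide) (Nat.eq_of_beq_eq_true h7)
    simp only [wperm, mul_one] at this
    simpa [x', pow_succ, mul_assoc] using this
  have hc3 : c' ^ 3 = 1 := by
    refine Subtype.ext ?_
    have := eq_of_key (w := [9, 9, 9]) (w' := []) (by decide) (by decide) (Nat.eq_of_beq_eq_true h3)
    simp only [wperm, mul_one] at this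
    simpa [c', pow_succ, mul_assoc] using this
  have hidx : (J.subgroupOf K0).index = 416 := by
    have h1 := Subgroup.card_mul_index (J.subgroupOf K0)
    rw [Nat.card_congr (Subgroup.subgroupOfEquivOfLe hJle).toEquiv, hJ, card_K0] at h1
    omega
  obtain ⟨g, hg⟩ := exists_conj_le (p := 7) (J.subgroupOf K0) _ (by rw [hidx]; norm_num) (pgroup 7 x' hx7)
  obtain ⟨g', hg'⟩ := exists_conj_le (p := 3) (J.subgroupOf K0) _ (by rw [hidx]; norm_num) (pgroup 3 c' hc3)
  have e7 := Subgroup.mem_subgroupOf.1 (hg x' (Subgroup.mem_zpowers x'))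
  have e9 := Subgroup.mem_subgroupOf.1 (hg' c' (Subgroup.mem_zpowers c'))
  simp only [Subgroup.coe_mul, InvMemClass.coe_inv] at e7 e9
  set γ : Equiv.Perm (Fin 1782) := (g : Equiv.Perm (Fin 1782)) with hγ
  set J' : Subgroup (Equiv.Perm (Fin 1782)) := J.map (MulAut.conj γ⁻¹).toMonoidHom with hJ'
  have mem' : ∀ y, y ∈ J' ↔ γ * y * γ⁻¹ ∈ J := fun y => by
    rw [hJ', Subgroup.mem_map]
    constructor
    · rintro ⟨z, hz, rfl⟩
      simpa [mul_assoc] using hz
    · intro hy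
      exact ⟨_, hy, by simp [mul_assoc]⟩
  have hJ'le : J' ≤ K0 := fun y hy => by
    have := mul_mem (mul_mem (inv_mem g.2) (hJle ((mem' y).1 hy))) g.2
    simpa [hγ, mul_assoc] using this
  have hJ'card : Nat.card J' = 604800 := by
    rw [hJ', Subgroup.card_map_of_injective (MulEquiv.injective _), hJ]
  obtain ⟨i, hi, hJi⟩ := near_aux hJ'le hJ'card ((mem' _).2 e7) ⟨γ⁻¹ * (g' * σ 9 * (g' : Equiv.Perm (Fin 1782))⁻¹) * γ, (mem' _).2 (by simpa [mul_assoc] using e9), by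
    have hc : σ 9 ∈ Cl := ⟨kc, hk, Or.inl (by rw [← eq_U_of_key (w := [9]) (by decide) hk h9, wperm_singleton])⟩
    have := (Cl_conj (mul_mem (inv_mem g.2) g'.2) (σ 9)).2 hc
    simpa [hγ, mul_assoc] using this⟩
  refine ⟨γ (fpt i), ?_, ?_⟩
  · obtain ⟨t, ht⟩ := fpt_orbit hi
    exact ⟨g * t, show (g * t) • b₀ = _ by rw [mul_smul, show t • b₀ = fpt i from ht]; rfl⟩
  · ext y
    have hy : y ∈ J ↔ γ⁻¹ * y * γ ∈ J' := by rw [mem']; simp [mul_assoc]
    rw [hy, hJi, Subgroup.mem_inf, Subgroup.mem_inf, mem_stabilizer_iff, mem_stabilizer_iff]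
    refine and_congr ⟨fun h => ?_, fun h => mul_mem (mul_mem (inv_mem g.2) h) g.2⟩ ?_
    · have := mul_mem (mul_mem g.2 h) (inv_mem g.2)
      simpa [hγ, mul_assoc] using this
    · change (γ⁻¹ * y * γ) (fpt i) = fpt i ↔ y (γ (fpt i)) = γ (fpt i)
      rw [Equiv.Perm.mul_apply, Equiv.Perm.mul_apply, Equiv.Perm.inv_def, Equiv.symm_apply_eq]

end CfsgLib.SuzRankThree
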