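import Cfsg.Agent.Lib.RankThreeRecog.Recognise
import Cfsg.Agent.Lib.RankThreeRecog.Rigid
import Cfsg.Agent.Lib.SuzMult.Perm
import Cfsg.Agent.Lib.SuzRankThree.Data
import Cfsg.Agent.S1679

/-!
The model: the presented Suzuki group on 1782 points, its point stabiliser, and the rigidity of its graph.
-/

set_option autoImplicit false
set_option maxRecDepth 100000
set_option linter.style.haveILetI false

namespace CfsgLib.SuzRankThree

open CfsgLib.RankThreeRecog MulAction
open CfsgLib.SuzMult (perm perm_of perm_injective genList)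
open CfsgLib.SporRecognition.Cert
open Cfsg.Spor.Suz (Gen)

/-- The image of a point under a letter. -/
noncomputable def img (i u : ℕ) : ℕ :=
  bif Nat.ble 11 i || Nat.ble 1782 u then u
  else Nat.land (Nat.shiftRight (lits.getD i 0) (Nat.mul 11 u)) 2047

/-- The inverse letter. -/
noncomputable def flip : ℕ → ℕ
  | 7 => 8
  | 8 => 7
  | 9 => 10
  | 10 => 9
  | i => i

/-- The inverse word. -/
noncomputable def rv (w : List ℕ) : List ℕ := (w.map flip).reverse

/-- The generators. -/
noncomputable def gen7 (i : ℕ) : Equiv.Perm (Fin 1782) :=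
  if i < 7 then perm (PresentedGroup.of (genList.getD i .a)) else 1

/-- The letters. -/
noncomputable def σ : ℕ → Equiv.Perm (Fin 1782)
  | 7 => wperm gen7 xw
  | 8 => (wperm gen7 xw)⁻¹
  | 9 => wperm gen7 cw
  | 10 => (wperm gen7 cw)⁻¹
  | i => gen7 i

/-- The seven tables agree with those of the certificate, and are involutions. -/
theorem gens_tabs : ((List.range 1782).all fun u => (List.range 7).all fun i =>
    Nat.beq (Suz1782.tabs (genList.getD i .a) true u) (img i u) && Nat.beq (img i (img i u)) u) = true := by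
  decide +kernel

theorem letters_ok : (decide (xw.all fun i => decide (i < 6)) && decide (cw.all fun i => decide (i < 6)) &&
    (List.range 1782).all fun u => Nat.beq (img 7 u) (ev img xw u) && Nat.beq (img 8 (img 7 u)) u &&
      Nat.beq (img 9 u) (ev img cw u) && Nat.beq (img 10 (img 9 u)) u) = true := by decide +kernel

theorem describes_gen {i : ℕ} (hi : i < 7) (u : Fin 1782) : ((gen7 i u : Fin 1782) : ℕ) = img i u := by
  have h := List.all_eq_true.1 gens_tabs u (List.mem_range.2 u.2)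
  have h' := List.all_eq_true.1 h i (List.mem_range.2 hi)
  rw [Bool.and_eq_true] at h'
  rw [gen7, if_pos hi, perm_of, Nat.eq_of_beq_eq_true h'.1]

theorem gen7_self (i : ℕ) : gen7 i * gen7 i = 1 := by
  by_cases hi : i < 7
  · refine Equiv.ext fun u => Fin.ext ?_
    rw [Equiv.Perm.mul_apply, describes_gen hi, describes_gen hi, Equiv.Perm.one_apply]
    have h := List.all_eq_true.1 gens_tabs u (List.mem_range.2 u.2)
    have h' := List.all_eq_true.1 h i (List.mem_range.2 hi)
    rw [Bool.and_eq_true] at h'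
    exact Nat.eq_of_beq_eq_true h'.2
  · simp [gen7, hi]

theorem gen7_word {w : List ℕ} (hw : ∀ i ∈ w, i < 7) (u : Fin 1782) :
    ((wperm gen7 w u : Fin 1782) : ℕ) = ev img w u := by
  induction w with
  | nil => rfl
  | cons i w ih =>
    rw [wperm, Equiv.Perm.mul_apply, describes_gen (hw i (List.mem_cons_self ..)), ev_cons,
      ih fun j hj => hw j (List.mem_cons_of_mem _ hj)]

theorem img_of_ge {i : ℕ} (hi : 11 ≤ i) (u : ℕ) : img i u = u := by
  rw [img, Nat.ble_eq_true_of_le hi]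
  rfl

theorem describes : Describes img σ := by
  intro i u
  have h := letters_ok
  simp only [Bool.and_eq_true, decide_eq_true_eq, List.all_eq_true, List.mem_range] at h
  obtain ⟨⟨hx, hc⟩, hall⟩ := h
  have hx' : ∀ i ∈ xw, i < 7 := fun j hj => (hx j hj).trans (by norm_num)
  have hc' : ∀ i ∈ cw, i < 7 := fun j hj => (hc j hj).trans (by norm_num)
  have e7 : ∀ v : Fin 1782, ((wperm gen7 xw v : Fin 1782) : ℕ) = img 7 v := fun v => by
    rw [gen7_word hx', Nat.eq_of_beq_eq_true (hall v v.2).1.1.1]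
  have e9 : ∀ v : Fin 1782, ((wperm gen7 cw v : Fin 1782) : ℕ) = img 9 v := fun v => by
    rw [gen7_word hc', Nat.eq_of_beq_eq_true (hall v v.2).1.2]
  rcases lt_or_ge i 7 with hi | hi
  · rw [show σ i = gen7 i by interval_cases i <;> rfl]
    exact describes_gen hi u
  rcases lt_or_ge i 11 with hi' | hi'
  · interval_cases i
    · exact e7 u
    · obtain ⟨v, rfl⟩ := (wperm gen7 xw).surjective u
      change (((wperm gen7 xw)⁻¹ (wperm gen7 xw v) : Fin 1782) : ℕ) = _
      rw [Equiv.Perm.inv_def, Equiv.symm_apply_apply, e7, Nat.eq_of_beq_eq_true (hall v v.2).1.1.2]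
    · exact e9 u
    · obtain ⟨v, rfl⟩ := (wperm gen7 cw).surjective u
      change (((wperm gen7 cw)⁻¹ (wperm gen7 cw v) : Fin 1782) : ℕ) = _
      rw [Equiv.Perm.inv_def, Equiv.symm_apply_apply, e9, Nat.eq_of_beq_eq_true (hall v v.2).2]
  · have : σ i = 1 := by
      obtain ⟨j, rfl⟩ := Nat.exists_eq_add_of_le hi'
      rw [show 11 + j = j + 11 by omega]
      change gen7 (j + 11) = 1
      simp [gen7]
    rw [this, img_of_ge hi']
    rfl

theorem img_lt : ∀ i u, u < 1782 → img i u < 1782 := fun i u hu => by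
  have := describes i ⟨u, hu⟩
  rw [← this]
  exact Fin.isLt _

theorem σ_flip (i : ℕ) : σ (flip i) = (σ i)⁻¹ := by
  rcases i with _ | _ | _ | _ | _ | _ | _ | _ | _ | _ | _ | i <;>
    first
    | exact rfl
    | exact (inv_inv _).symm
    | exact (inv_eq_of_mul_eq_one_right (gen7_self _)).symm

theorem wperm_rv (w : List ℕ) : wperm σ (rv w) = (wperm σ w)⁻¹ := by
  induction w with
  | nil => simp [rv, wperm]
  | cons i w ih =>
    rw [rv, List.map_cons, List.reverse_cons, wperm_append, ← rv, ih, wperm_singleton, σ_flip, wperm,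
      mul_inv_rev]

/-- The model group. -/
noncomputable def S : Subgroup (Equiv.Perm (Fin 1782)) := perm.range

/-- The point stabiliser. -/
noncomputable def K0 : Subgroup (Equiv.Perm (Fin 1782)) := Subgroup.closure {g | ∃ i, i < 6 ∧ σ i = g}

/-- A word avoiding the last generator. -/
noncomputable def inK (w : List ℕ) : Bool := w.all fun i => !Nat.beq i 6

theorem σ_mem_S (i : ℕ) : σ i ∈ S := by
  have hg : ∀ i, gen7 i ∈ S := fun i => by
    by_cases hi : i < 7
    · rw [gen7, if_pos hi]; exact ⟨_, rfl⟩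
    · rw [gen7, if_neg hi]; exact one_mem _
  rcases i with _ | _ | _ | _ | _ | _ | _ | _ | _ | _ | _ | i <;>
    first
    | exact hg _
    | exact wperm_mem fun j _ => hg j
    | exact inv_mem (wperm_mem fun j _ => hg j)

theorem σ_mem_K0 {i : ℕ} (hi : i ≠ 6) : σ i ∈ K0 := by
  have hg : ∀ i, i < 6 → gen7 i ∈ K0 := fun i h => by
    refine Subgroup.subset_closure ⟨i, h, ?_⟩
    interval_cases i <;> rfl
  have h := letters_ok
  simp only [Bool.and_eq_true, decide_eq_true_eq, List.all_eq_true, List.mem_range] at h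
  rcases lt_or_ge i 6 with h6 | h6
  · rw [show σ i = gen7 i by interval_cases i <;> rfl]
    exact hg i h6
  rcases lt_or_ge i 11 with h11 | h11
  · interval_cases i
    · exact absurd rfl hi
    · exact wperm_mem fun j hj => hg j (h.1.1 j hj)
    · exact inv_mem (wperm_mem fun j hj => hg j (h.1.1 j hj))
    · exact wperm_mem fun j hj => hg j (h.1.2 j hj)
    · exact inv_mem (wperm_mem fun j hj => hg j (h.1.2 j hj))
  · obtain ⟨j, rfl⟩ := Nat.exists_eq_add_of_le' h11
    change gen7 (j + 11) ∈ K0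
    rw [gen7, if_neg (by omega)]
    exact one_mem _

theorem wperm_mem_K0 {w : List ℕ} (h : inK w = true) : wperm σ w ∈ K0 := by
  rw [inK, List.all_eq_true] at h
  refine wperm_mem fun i hi => σ_mem_K0 fun e => ?_
  have := h i hi
  rw [e] at this
  exact absurd this (by decide)

theorem wperm_mem_S (w : List ℕ) : wperm σ w ∈ S := wperm_mem fun i _ => σ_mem_S i

theorem K0_le_S : K0 ≤ S := by
  rw [K0, Subgroup.closure_le]
  rintro _ ⟨i, -, rfl⟩
  exact σ_mem_S i

/-- The point `0`. -/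
def a₀ : Fin 1782 := 0

/-- The representative of the first suborbit. -/
def b₀ : Fin 1782 := 47

/-- The representative of the second suborbit. -/
def c₀ : Fin 1782 := 1

theorem zero_fixed : ((List.range 6).all fun i => Nat.beq (img i 0) 0) = true := by decide +kernel

theorem K0_fix {g : Equiv.Perm (Fin 1782)} (hg : g ∈ K0) : g a₀ = a₀ := by
  have : K0 ≤ stabilizer (Equiv.Perm (Fin 1782)) a₀ := by
    rw [K0, Subgroup.closure_le]
    rintro _ ⟨i, hi, rfl⟩
    refine mem_stabilizer_iff.2 (Fin.ext ?_)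
    change ((σ i a₀ : Fin 1782) : ℕ) = _
    rw [describes]
    exact Nat.eq_of_beq_eq_true (List.all_eq_true.1 zero_fixed i (List.mem_range.2 hi))
  exact mem_stabilizer_iff.1 (this hg)

theorem card_S : Nat.card S = 448345497600 := by
  rw [← (Cfsg.Agent.S1694.result).2]
  exact (Nat.card_congr (MonoidHom.ofInjective perm_injective).toEquiv).symm

theorem H_map : Cfsg.Agent.S1679.H.map perm = K0 := by
  rw [Cfsg.Agent.S1679.H, CfsgLib.SporRecognition.CosetCert.wordSubgroup, MonoidHom.map_closure, K0]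
  congr 1
  ext g
  constructor
  · rintro ⟨x, hx, rfl⟩
    rw [Set.mem_ofPred_eq, Cfsg.Agent.S1679.subW_eq, List.map_map] at hx
    obtain ⟨a, ha, rfl⟩ := List.mem_map.1 hx
    obtain ⟨i, hi, e⟩ : ∃ i, i < 6 ∧ genList.getD i .a = a := by
      cases a
      · exact ⟨0, by norm_num, rfl⟩
      · exact ⟨1, by norm_num, rfl⟩
      · exact ⟨2, by norm_num, rfl⟩
      · exact ⟨3, by norm_num, rfl⟩
      · exact ⟨4, by norm_num, rfl⟩
      · exact ⟨5, by norm_num, rfl⟩
      · exact absurd ha (by decide)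
    refine ⟨i, hi, ?_⟩
    rw [show σ i = gen7 i by interval_cases i <;> rfl, gen7, if_pos (by omega), e]
    simp [CfsgLib.SporRecognition.CosetCert.evalW_eq_prod]
  · rintro ⟨i, hi, rfl⟩
    refine ⟨PresentedGroup.of (genList.getD i .a), ?_, ?_⟩
    · rw [Set.mem_ofPred_eq, Cfsg.Agent.S1679.subW_eq, List.map_map]
      refine List.mem_map.2 ⟨genList.getD i .a, ?_, ?_⟩
      · interval_cases i <;> decide
      · simp [CfsgLib.SporRecognition.CosetCert.evalW_eq_prod]
    · rw [show σ i = gen7 i by interval_cases i <;> rfl, gen7, if_pos (by omega)]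

theorem card_K0 : Nat.card K0 = 251596800 := by
  rw [← H_map, Nat.card_congr (Subgroup.equivMapOfInjective _ perm perm_injective).toEquiv.symm]
  exact Cfsg.Agent.S1679.card_H

/-- The set of a mask. -/
def maskSet (m : ℕ) : Set (Fin 1782) := {x | Nat.testBit m x = true}

theorem ncard_maskSet (m : ℕ) : (maskSet m).ncard = maskCount 1782 m := by
  rw [maskCount, List.countP_eq_length_filter,
    ← List.toFinset_card_of_nodup (List.nodup_range.filter _), ← Set.ncard_coe_finset,
    ← Set.ncard_image_of_injective _ Fin.val_injective]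
  congr 1
  ext i
  simp only [Set.mem_image, maskSet, Set.mem_ofPred_eq, List.coe_toFinset, List.mem_filter,
    List.mem_range]
  constructor
  · rintro ⟨x, hx, rfl⟩; exact ⟨x.2, hx⟩
  · rintro ⟨hi, hm⟩; exact ⟨⟨i, hi⟩, hm, rfl⟩

/-- An orbit certificate: generators, growing list, root, resulting mask. -/
noncomputable def connOK (gens : List (List ℕ)) (es : List (ℕ × ℕ × ℕ)) (r m : ℕ) : Bool :=
  match grow img gens es (Nat.shiftLeft 1 r) with
  | some m' => Nat.beq m' m
  | none => false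

theorem conn_spec {gens : List (List ℕ)} {es : List (ℕ × ℕ × ℕ)} {r m : ℕ} (h : connOK gens es r m = true)
    {L : Subgroup (Equiv.Perm (Fin 1782))} (hL : ∀ w ∈ gens, wperm σ w ∈ L) (hr : r < 1782) :
    maskSet m ⊆ orbit L (⟨r, hr⟩ : Fin 1782) := by
  rw [connOK] at h
  rcases hg : grow img gens es (Nat.shiftLeft 1 r) with _ | m'
  · rw [hg] at h; exact absurd h (by simp)
  rw [hg] at h
  obtain rfl := Nat.eq_of_beq_eq_true h
  intro x hx
  obtain ⟨y, hy, e⟩ := grow_spec describes hL (orbit L (⟨r, hr⟩ : Fin 1782)) (fun g hg z hz => by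
      obtain ⟨t, rfl⟩ := hz
      exact ⟨⟨g, hg⟩ * t, rfl⟩) img_lt es _ _ hg (fun i hi => by
      change Nat.testBit (1 <<< r) i = true at hi
      rw [Nat.one_shiftLeft, Nat.testBit_two_pow, decide_eq_true_eq] at hi
      exact ⟨_, mem_orbit_self _, hi⟩) x hx
  rwa [← Fin.ext e]

/-- Invariance of a mask under words. -/
theorem maskSet_inv {w l : List ℕ} {m : ℕ} (hl : ∀ u ∈ l, u < 1782) (hm : maskOf l = m)
    (h : imageMask img w l = m) (x : Fin 1782) : wperm σ w x ∈ maskSet m ↔ x ∈ maskSet m := by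
  simp only [maskSet, Set.mem_ofPred_eq]
  conv_lhs => rw [← h, testBit_imageMask describes w l hl]
  conv_rhs => rw [← hm, testBit_maskOf]
  simp

theorem orbit_checks :
    ((o416.all fun u => decide (u < 1782)) && (o1365.all fun u => decide (u < 1782)) &&
      Nat.beq (maskOf o416) mskK1_0 && Nat.beq (maskOf o1365) mskK2_0 &&
      ((List.range 6).all fun i => Nat.beq (imageMask img [i] o416) mskK1_0 &&
        Nat.beq (imageMask img [i] o1365) mskK2_0) &&
      connOK gensK1 esK1_0 47 mskK1_0 && connOK gensK2 esK2_0 1 mskK2_0 &&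
      gensK1.all inK && gensK2.all inK &&
      Nat.beq (maskCount 1782 mskK1_0) 416 && Nat.beq (maskCount 1782 mskK2_0) 1365 &&
      Nat.testBit mskK1_0 47 && Nat.testBit mskK2_0 1 &&
      connOK ((List.range 7).map fun i => [i]) transEs 0 (2 ^ 1782 - 1)) = true := by decide +kernel

theorem orbit_eq {m r : ℕ} {l : List ℕ} {gens : List (List ℕ)} {es : List (ℕ × ℕ × ℕ)}
    (hl : ∀ u ∈ l, u < 1782) (hm : maskOf l = m) (hinv : ∀ i, i < 6 → imageMask img [i] l = m)
    (hc : connOK gens es r m = true) (hg : ∀ w ∈ gens, inK w = true) (hr : r < 1782)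
    (hrm : Nat.testBit m r = true) : orbit K0 (⟨r, hr⟩ : Fin 1782) = maskSet m := by
  refine subset_antisymm ?_ (conn_spec hc (fun w hw => wperm_mem_K0 (hg w hw)) hr)
  rintro _ ⟨⟨g, hgK⟩, rfl⟩
  change g ⟨r, hr⟩ ∈ maskSet m
  suffices h : ∀ x, g x ∈ maskSet m ↔ x ∈ maskSet m from (h _).2 hrm
  induction hgK using Subgroup.closure_induction with
  | mem g hg =>
    obtain ⟨i, hi, rfl⟩ := hg
    intro x
    have := maskSet_inv (w := [i]) hl hm (hinv i hi) x
    rwa [wperm_singleton] at this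
  | one => intro x; rfl
  | mul g h _ _ hg hh => intro x; exact (hg _).trans (hh x)
  | inv g _ hg => intro x; exact ((hg (g⁻¹ x)).symm.trans (by simp))

theorem orbit416 : orbit K0 b₀ = maskSet mskK1_0 ∧ (maskSet mskK1_0).ncard = 416 := by
  have h := orbit_checks
  simp only [Bool.and_eq_true, List.all_eq_true, decide_eq_true_eq, List.mem_range] at h
  obtain ⟨⟨⟨⟨⟨⟨⟨⟨⟨⟨⟨⟨⟨hl, -⟩, hm⟩, -⟩, hinv⟩, hc⟩, -⟩, hg⟩, -⟩, hn⟩, -⟩, hr⟩, -⟩, -⟩ := h
  exact ⟨orbit_eq hl (Nat.eq_of_beq_eq_true hm) (fun i hi => Nat.eq_of_beq_eq_true (hinv i hi).1) hc hg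
    (by norm_num) hr, by rw [ncard_maskSet, Nat.eq_of_beq_eq_true hn]⟩

theorem orbit1365 : orbit K0 c₀ = maskSet mskK2_0 ∧ (maskSet mskK2_0).ncard = 1365 := by
  have h := orbit_checks
  simp only [Bool.and_eq_true, List.all_eq_true, decide_eq_true_eq, List.mem_range] at h
  obtain ⟨⟨⟨⟨⟨⟨⟨⟨⟨⟨⟨⟨⟨-, hl⟩, -⟩, hm⟩, hinv⟩, -⟩, hc⟩, -⟩, hg⟩, -⟩, hn⟩, -⟩, hr⟩, -⟩ := h
  exact ⟨orbit_eq hl (Nat.eq_of_beq_eq_true hm) (fun i hi => Nat.eq_of_beq_eq_true (hinv i hi).2) hc hg
    (by norm_num) hr, by rw [ncard_maskSet, Nat.eq_of_beq_eq_true hn]⟩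

theorem S_transitive (x : Fin 1782) : x ∈ orbit S a₀ := by
  have h := orbit_checks
  simp only [Bool.and_eq_true] at h
  refine conn_spec h.2 (fun w _ => wperm_mem_S w) (by norm_num) ?_
  change Nat.testBit (2 ^ 1782 - 1) x = true
  rw [Nat.testBit_two_pow_sub_one]
  simp

theorem pretransitive : IsPretransitive S (Fin 1782) :=
  ⟨fun x y => by
    obtain ⟨g, rfl⟩ := S_transitive x
    obtain ⟨h, rfl⟩ := S_transitive y
    exact ⟨h * g⁻¹, by simp [mul_smul]⟩⟩

theorem stab_eq : S ⊓ stabilizer (Equiv.Perm (Fin 1782)) a₀ = K0 := by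
  refine (Subgroup.eq_of_le_of_card_ge (le_inf K0_le_S fun g hg => mem_stabilizer_iff.2 (K0_fix hg)) ?_).symm
  have h := card_K0
  have h1 := ncard_orbit_mul_stab S a₀
  rw [Set.eq_univ_of_forall S_transitive, Set.ncard_univ, Nat.card_fin, card_S] at h1
  have h2 : Nat.card ↥(S ⊓ stabilizer (Equiv.Perm (Fin 1782)) a₀) = Nat.card (stabilizer S a₀) :=
    Nat.card_congr
      { toFun := fun s => ⟨⟨s.1, s.2.1⟩, s.2.2⟩
        invFun := fun s => ⟨s.1.1, s.1.2, s.2⟩
        left_inv := fun _ => rfl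
        right_inv := fun _ => rfl }
  omega

/-- The model stabiliser as the point stabiliser. -/
noncomputable def stabEquiv : stabilizer S a₀ ≃* K0 where
  toFun s := ⟨s.1.1, stab_eq.le ⟨s.1.2, s.2⟩⟩
  invFun g := ⟨⟨g.1, K0_le_S g.2⟩, K0_fix g.2⟩
  left_inv _ := rfl
  right_inv _ := rfl
  map_mul' _ _ := rfl

theorem orbit_stab (x : Fin 1782) : orbit (stabilizer S a₀) x = orbit K0 x := by
  ext y
  constructor
  · rintro ⟨s, rfl⟩; exact ⟨stabEquiv s, rfl⟩
  · rintro ⟨g, rfl⟩; exact ⟨stabEquiv.symm g, rfl⟩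

theorem sub : Sub S a₀ b₀ c₀ 1782 416 1365 where
  finG := inferInstance
  finV := inferInstance
  pre := pretransitive
  card := Nat.card_fin _
  near := by rw [orbit_stab, orbit416.1, orbit416.2]
  far := by rw [orbit_stab, orbit1365.1, orbit1365.2]
  ne := by norm_num
  sum := by norm_num
  kpos := by norm_num
  lpos := by norm_num
  noBlock := by norm_num

/-- The edges of the model graph. -/
def E (x y : Fin 1782) : Prop := Edge S a₀ b₀ x y

theorem S_le_aut : S ≤ relAut E := fun g hg _ _ => edge_smul (⟨g, hg⟩ : S)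

theorem row_checks : (rowWords.all fun r => Nat.beq (ev img r.2.2 0) r.1 &&
    Nat.beq (imageMask img r.2.2 o416) r.2.1) &&
    ((rigidRows steps).all fun r => rowWords.any fun r' => Nat.beq r'.1 r.1 && Nat.beq r'.2.1 r.2) = true := by
  decide +kernel

theorem rowsSpec : RowsSpec E (rigidRows steps) := by
  have h := row_checks
  simp only [Bool.and_eq_true, List.all_eq_true, List.any_eq_true, decide_eq_true_eq] at h
  intro r hr
  obtain ⟨r', hr', e1, e2⟩ := h.2 r hr
  obtain ⟨hw, hm⟩ := h.1 r' hr'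
  have hf : ((wperm σ r'.2.2 a₀ : Fin 1782) : ℕ) = r.1 := by
    rw [ev_eq describes, ← Nat.eq_of_beq_eq_true e1]
    exact Nat.eq_of_beq_eq_true hw
  refine ⟨wperm σ r'.2.2 a₀, hf, fun i => ?_⟩
  have hc := orbit_checks
  simp only [Bool.and_eq_true, List.all_eq_true, decide_eq_true_eq, List.mem_range] at hc
  obtain ⟨⟨⟨⟨⟨⟨⟨⟨⟨⟨⟨⟨⟨hl, -⟩, hm0⟩, -⟩, -⟩, -⟩, -⟩, -⟩, -⟩, -⟩, -⟩, -⟩, -⟩, -⟩ := hc
  rw [← Nat.eq_of_beq_eq_true e2, ← Nat.eq_of_beq_eq_true hm, testBit_imageMask describes _ _ hl,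
    ← testBit_maskOf, Nat.eq_of_beq_eq_true hm0]
  change ((wperm σ r'.2.2)⁻¹ i ∈ maskSet mskK1_0) ↔ Edge S a₀ b₀ ((⟨_, wperm_mem_S r'.2.2⟩ : S) • a₀) i
  rw [← orbit416.1, ← orbit_stab, ← edge_base (G := S) (a := a₀) (b := b₀),
    ← edge_smul (⟨_, wperm_mem_S r'.2.2⟩ : S) (y := (wperm σ r'.2.2)⁻¹ i)]
  refine Iff.of_eq (congrArg _ ?_)
  change wperm σ r'.2.2 ((wperm σ r'.2.2)⁻¹ i) = i
  simp

theorem rigid_ok : rigidOK 1782 11 steps (Nat.shiftLeft 1 0) = true := by decide +kernel

theorem rigid_data : rigidBound steps = 503193600 ∧ rigidBase steps = base := by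
  constructor <;> decide +kernel

theorem start_fix {g : Equiv.Perm (Fin 1782)} {A : Subgroup (Equiv.Perm (Fin 1782))} (hg : g ∈ A)
    (h0 : g a₀ = a₀) : g ∈ fixer A (Nat.shiftLeft 1 0) := by
  refine ⟨hg, fun x hx => ?_⟩
  change Nat.testBit (1 <<< 0) x = true at hx
  rw [Nat.one_shiftLeft, Nat.testBit_two_pow, decide_eq_true_eq] at hx
  rw [show x = a₀ from Fin.ext hx.symm, h0]

theorem card_aut_stab : Nat.card ↥(stabilizer (relAut E) a₀) ≤ 2 * Nat.card (stabilizer S a₀) := by
  rw [Nat.card_congr stabEquiv.toEquiv, card_K0]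
  have h := rigid_card (E := E) (A := relAut E) (fun g hg => hg) steps _ rigid_ok rowsSpec
  rw [rigid_data.1] at h
  refine le_trans ?_ h
  exact Nat.card_le_card_of_injective (fun s => ⟨s.1.1, start_fix s.1.2 s.2⟩)
    fun s t e => Subtype.ext (Subtype.ext (congrArg (fun q => q.1) e))

/-- Elements of the point stabiliser are determined by the images of the base. -/
theorem eq_of_base {g h : Equiv.Perm (Fin 1782)} (hg : g ∈ K0) (hh : h ∈ K0)
    (e : ∀ v : Fin 1782, (v : ℕ) ∈ base → g v = h v) : g = h := by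
  have := rigid_eq_one (E := E) (A := relAut E) (fun g hg => hg) steps _ rigid_ok rowsSpec (h⁻¹ * g)
    (start_fix (S_le_aut (K0_le_S (mul_mem (inv_mem hh) hg))) (K0_fix (mul_mem (inv_mem hh) hg)))
    (fun v hv => by rw [Equiv.Perm.mul_apply, e v (rigid_data.2 ▸ hv)]; simp)
  exact (inv_mul_eq_one.1 this).symm

theorem eq_of_sameOn {w w' : List ℕ} (hw : inK w = true) (hw' : inK w' = true)
    (h : sameOn img base w w' = true) : wperm σ w = wperm σ w' :=
  eq_of_base (wperm_mem_K0 hw) (wperm_mem_K0 hw') fun v hv => sameOn_spec describes h v hv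

end CfsgLib.SuzRankThree
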